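/-
Root involutions: the isolated members of the centralizer.
-/
import Cfsg.Agent.RI.ND3
set_option autoImplicit false
set_option linter.unusedSectionVars false

namespace CF.Rt2
open Subgroup Cfsg CF.BG CF.Rt

variable {G : Type*} [Group G] [Finite G] {D : Set G}
variable {a b c d d' e f g i j m n s t u v w x y z : G}

/-- a generating non-degenerate class -/
structure NT (D : Set G) : Prop extends NC D where
  top : closure D = ⊤

/-- the same opposite members -/
abbrev Sm (D : Set G) (a b : G) : Prop := AA D a = AA D b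

/-- the isolated members of the centralizer -/
structure W (D : Set G) (d w : G) : Prop where
  m : w ∈ D
  c : Commute d w
  n : ∀ x ∈ D, Commute d x → ¬ Op w x

/-- central modulo the class of `d` -/
structure Z (D : Set G) (d u : G) : Prop extends W D d u where
  z : ∀ m, W D d m → ¬ Commute m u → Sm D (cm m u) d

/-- the centralizer of the members commuting with `d` -/
def Ce (D : Set G) (d : G) : Subgroup G := centralizer {x | x ∈ D ∧ Commute d x}

theorem mem_Ce : z ∈ Ce D d ↔ ∀ x ∈ D, Commute d x → Commute x z :=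
  ⟨fun k x hx c => k x ⟨hx, c⟩, fun k x hx => k x hx.1 hx.2⟩

theorem Ce.cm (k : z ∈ Ce D d) (hx : x ∈ D) (c : Commute d x) : Commute x z := mem_Ce.1 k x hx c

theorem W.ce (k : W D d w) (hz : z ∈ Ce D d) : Commute w z := Ce.cm hz k.m k.c

theorem cjc (c : Commute g a) : g * a * g⁻¹ = a := by rw [c.eq]; simp
theorem cj2 (c : Commute g a) (g2 : g * g = 1) : g * a * g = a := by rw [c.eq, mm' g2]
theorem comm_conj : Commute (g * a * g⁻¹) (g * b * g⁻¹) ↔ Commute a b :=
  ⟨fun k => by simpa [mul_assoc] using k.conj g⁻¹, fun k => k.conj g⟩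
theorem cm_cj (g2 : g * g = 1) (a b : G) : cm (g * a * g) (g * b * g) = g * cm a b * g := by
  simpa [inv_eq g2] using cm_conj g a b
theorem comm_cm (k : Commute z a) (k' : Commute z b) : Commute z (cm a b) :=
  (k.mul_right k').mul_right (k.mul_right k')
theorem comm_of_cj (g2 : g * g = 1) (e : g * a * g = a) : Commute g a := by
  rw [Commute, SemiconjBy]; conv_rhs => rw [← e]
  rw [mm' g2]

namespace NT
variable (h : NT D)
include h

theorem tp : TP D := ⟨h.toRI, h.top⟩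
theorem ri : RI D := h.toRI
theorem cg (g : G) : g ∈ closure D := h.top ▸ mem_top g
theorem cn (g : G) (hd : d ∈ D) : g * d * g⁻¹ ∈ D := h.ri.conj (h.cg g) hd
theorem cn2 (g2 : g * g = 1) (hd : d ∈ D) : g * d * g ∈ D := by simpa [inv_eq g2] using h.cn g hd
theorem cn' (g : G) (hd : g * d * g⁻¹ ∈ D) : d ∈ D := by simpa [mul_assoc] using h.cn g⁻¹ hd
theorem lc (l : Ln D a b) (g : G) : Ln D (g * a * g⁻¹) (g * b * g⁻¹) := l.conj h.ri (h.cg g)
theorem lc2 (l : Ln D a b) (g2 : g * g = 1) : Ln D (g * a * g) (g * b * g) := by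
  simpa [inv_eq g2] using h.lc l g
theorem sc (k : Sm D a b) (g : G) : Sm D (g * a * g⁻¹) (g * b * g⁻¹) := h.ri.AA_conj (h.cg g) k
theorem sc2 (k : Sm D a b) (g2 : g * g = 1) : Sm D (g * a * g) (g * b * g) := by
  simpa [inv_eq g2] using h.sc k g

theorem sp' (ha : a ∈ D) (hb : b ∈ D) (n : ¬ Commute a b) (o : ¬ Op a b) : cm a b ∈ D :=
  ((h.tri ha hb).resolve_left n).resolve_left o

theorem sm_comm (k : Sm D d e) (hd : d ∈ D) (he : e ∈ D) (hy : y ∈ D) (c : Commute d y) :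
    Commute e y := h.ri.comm_of_AA h.fc hd he k hy c

theorem sm_op (k : Sm D d e) (hy : y ∈ D) (o : Op d y) : Op e y :=
  (k ▸ (⟨hy, o⟩ : y ∈ AA D d) : y ∈ AA D e).2

theorem sm_sp (k : Sm D d e) (hd : d ∈ D) (he : e ∈ D) (hy : y ∈ D) (c : cm d y ∈ D) :
    cm e y ∈ D :=
  h.sp' he hy (fun q => h.ri.not_comm hd hy c (h.sm_comm k.symm he hd hy q))
    fun o => h.ri.not_op hy c (h.sm_op k.symm hy o)

theorem sm_c (k : Sm D d e) (hd : d ∈ D) (he : e ∈ D) : Commute d e :=
  (h.sm_comm k hd he hd (.refl d)).symm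

theorem sm_ce (k : Sm D e d) (hd : d ∈ D) (he : e ∈ D) : e ∈ Ce D d :=
  mem_Ce.2 fun _ hx c => (h.sm_comm k.symm hd he hx c).symm

theorem ce_self : d ∈ Ce D d := mem_Ce.2 fun _ _ c => c.symm

theorem ce_eq (k : Sm D e d) (hd : d ∈ D) (he : e ∈ D) : Ce D e = Ce D d := by
  unfold Ce; congr 1; ext x
  exact and_congr_right fun hx => ⟨h.sm_comm k he hd hx, h.sm_comm k.symm hd he hx⟩

theorem ce_conj (k : z ∈ Ce D d) (g : G) : g * z * g⁻¹ ∈ Ce D (g * d * g⁻¹) :=
  mem_Ce.2 fun x hx c => by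
    rw [show x = g * (g⁻¹ * x * g) * g⁻¹ by group] at c ⊢
    exact (Ce.cm k (by simpa using h.cn g⁻¹ hx) (comm_conj.1 c)).conj g

theorem w_self (hd : d ∈ D) : W D d d := ⟨hd, .refl d, fun _ hx c o => h.ri.op_nc hd hx o c⟩

theorem w_ln (l : Ln D d b) : W D d b :=
  ⟨l.r, l.c, fun _ hx c => l.symm.not_op h.ri hx c.symm⟩

theorem w_mul (l : Ln D a b) (ka : W D d a) (kb : W D d b) : W D d (a * b) :=
  ⟨l.m, ka.c.mul_right kb.c, fun x hx c o => by
    rcases h.ri.lemC (l.third h.ri).symm hx o with k | k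
    · exact ka.n x hx c k
    · rw [l.c.eq, mm' (h.sq l.l)] at k; exact kb.n x hx c k⟩

theorem w_conj (k : W D d w) (g : G) : W D (g * d * g⁻¹) (g * w * g⁻¹) :=
  ⟨h.cn g k.m, k.c.conj g, fun x hx c o => by
    rw [show x = g * (g⁻¹ * x * g) * g⁻¹ by group] at c o
    exact k.n _ (by simpa using h.cn g⁻¹ hx) (comm_conj.1 c) (op_conj.1 o)⟩

theorem w_cj (k : W D d w) (g2 : g * g = 1) : W D (g * d * g) (g * w * g) := by
  simpa [inv_eq g2] using h.w_conj k g

theorem w_cc (k : W D d w) (g2 : g * g = 1) (c : Commute g d) : W D d (g * w * g) := by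
  simpa [cj2 c g2] using h.w_cj k g2

theorem w_l (k : W D d w) (e : Sm D d d') (hd : d ∈ D) (hd' : d' ∈ D) : W D d' w :=
  ⟨k.m, h.sm_comm e hd hd' k.m k.c, fun x hx c => k.n x hx (h.sm_comm e.symm hd' hd hx c)⟩

theorem w_r (k : W D d w) (e : Sm D w v) (hd : d ∈ D) (hv : v ∈ D) : W D d v :=
  ⟨hv, (h.sm_comm e k.m hv hd k.c.symm).symm, fun x hx c o => k.n x hx c (h.sm_op e.symm hx o)⟩

theorem w_sm (e : Sm D w d) (hd : d ∈ D) (hw : w ∈ D) : W D d w :=
  h.w_r (h.w_self hd) e.symm hd hw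

theorem w_sp (ke : W D d e) (hf : f ∈ D) (c : Commute d f) (n : ¬ Commute e f) : cm e f ∈ D :=
  h.sp' ke.m hf n (ke.n f hf c)

theorem w_cm (ke : W D d e) (hf : f ∈ D) (c : Commute d f) (k : cm e f ∈ D) : W D d (cm e f) := by
  have l := (h.ri.ln_l ke.m hf k).third h.ri
  have := h.w_mul l ke (by rw [h.ri.mul_cm ke.m]; exact h.w_cc ke (h.sq hf) c.symm)
  rwa [mm (h.sq ke.m)] at this

/-- isolated members centralizing all lines through `d` -/
theorem sm_of_w (hd : d ∈ D) (k : W D d w) (c : ∀ y, Ln D d y → Commute w y) : Sm D w d :=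
  h.ri.AA_eq (h.fc _ k.m _ hd) fun x hx => by
    have n : ¬ Commute d x := fun q => k.n x hx.1 q hx.2
    exact ⟨hx.1, ((h.tri hd hx.1).resolve_left n).resolve_right (h.ri.AA_sub hd c hx n k.m)⟩

theorem sm_of_ce (hd : d ∈ D) (hw : w ∈ D) (k : w ∈ Ce D d) : Sm D w d :=
  h.sm_of_w hd ⟨hw, Ce.cm k hd (.refl d), fun x hx c o => h.ri.op_nc hw hx o (Ce.cm k hx c).symm⟩
    fun _ l => (Ce.cm k l.r l.c).symm

theorem w_two (d : G) : PiGrp {2} (closure {w | W D d w}) :=
  h.ri.bs (fun _ k => k.m) (fun ka kb => h.w_cc ka (h.sq kb.m) kb.c.symm) fun _ ka _ kb => ka.n _ kb.m kb.c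

theorem z_conj (k : Z D d c) (g : G) : Z D (g * d * g⁻¹) (g * c * g⁻¹) :=
  ⟨h.w_conj k.toW g, fun m km n => by
    rw [show m = g * (g⁻¹ * m * g) * g⁻¹ by group] at n ⊢
    rw [cm_conj]
    exact h.sc (k.z _ (by simpa [mul_assoc] using h.w_conj km g⁻¹) fun q => n (q.conj g)) g⟩

theorem z_cj (k : Z D d c) (g2 : g * g = 1) : Z D (g * d * g) (g * c * g) := by
  simpa [inv_eq g2] using h.z_conj k g

theorem z_l (k : Z D d c) (e : Sm D d d') (hd : d ∈ D) (hd' : d' ∈ D) : Z D d' c :=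
  ⟨h.w_l k.toW e hd hd', fun m km n => (k.z m (h.w_l km e.symm hd' hd) n).trans e⟩

theorem z_ce (hd : d ∈ D) (k : Z D d c) (km : W D d m) : cm m c ∈ Ce D d := by
  by_cases n : Commute m c
  · rw [cm_eq_one (h.sq km.m) (h.sq k.m) n]; exact one_mem _
  · exact h.sm_ce (k.z m km n) hd (h.w_sp km k.m k.c n)

theorem z_of (hd : d ∈ D) (k : W D d c) (q : ∀ m, W D d m → cm m c ∈ Ce D d) : Z D d c :=
  ⟨k, fun m km n => h.sm_of_ce hd (h.w_sp km k.m k.c n) (q m km)⟩

theorem z_mul (hd : d ∈ D) (l : Ln D a b) (ka : Z D d a) (kb : Z D d b) : Z D d (a * b) :=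
  h.z_of hd (h.w_mul l ka.toW kb.toW) fun m km => by
    have k1 := h.z_ce hd ka km
    have k2 := h.z_ce hd kb km
    have : cm m (a * b) = m * (a * (m * cm m b) * a) := by
      rw [h.ri.mul_cm km.m, cm]; simp only [mul_assoc]; rw [l.c.eq]
    rw [this, mul_assoc a, mul_assoc m, ← (ka.ce k2).eq, show m * (a * (m * (a * cm m b))) =
      cm m a * cm m b by simp only [mul_assoc]]
    exact mul_mem k1 k2

/-- central members commute with commutators -/
theorem z_comm (hd : d ∈ D) (k : Z D d c) (ke : W D d e) (kf : W D d f) : Commute c (cm e f) := by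
  have k1 := h.z_ce hd k ke
  have k2 := h.z_ce hd k kf
  have c2 := h.sq k.m
  have s1 : ∀ {e}, W D d e → cm e c * cm e c = 1 := fun {e} ke => by
    by_cases n : Commute e c
    · rw [cm_eq_one (h.sq ke.m) c2 n, one_mul]
    · exact h.sq (h.w_sp ke k.m k.c n)
  have c12 : Commute (cm e c) (cm f c) := (comm_cm (ke.ce k2).symm (k.ce k2).symm).symm
  refine comm_of_cj c2 ?_
  rw [← cm_cj c2, ← h.ri.mul_cm ke.m, ← h.ri.mul_cm kf.m]
  have s2 := s1 kf
  replace s1 := s1 ke
  generalize cm e c = p at *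
  generalize cm f c = q at *
  have a1 := ke.ce k1; have a2 := ke.ce k2; have a3 := kf.ce k1; have a4 := kf.ce k2
  have : e * p * (f * q) = e * f * (p * q) := by simp only [mul_assoc]; rw [a3.left_comm]
  rw [cm, this, ← pow_two, ((a1.mul_right a2).mul_left (a3.mul_right a4)).mul_pow, c12.mul_pow,
    pow_two p, pow_two q, s1, s2, pow_two, mul_one, mul_one]

end NT
end CF.Rt2
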