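/-
Root involutions: pairs generating `S₃`, and the opposite case.
-/
import Cfsg.Agent.RI2.A
set_option autoImplicit false
set_option linter.unusedSectionVars false

namespace CF.Rt2
open Subgroup Cfsg CF.BG CF.Rt

variable {G : Type*} [Group G] [Finite G] {D : Set G}
variable {a b c d d' e f g i j m n s t u v w x y z : G}

/-- a pair with product of order three -/
structure S3 (D : Set G) (c x : G) : Prop where
  l : c ∈ D
  r : x ∈ D
  o : Op c x
  b : c * x * c = x * c * x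

theorem S3.symm (k : S3 D c x) : S3 D x c := ⟨k.r, k.l, k.o.symm, k.b.symm⟩

theorem mem_cl_cj {S : Set G} {K : Subgroup G} (g2 : g * g = 1) (q : ∀ t ∈ S, g * t * g ∈ K)
    (hm : m ∈ closure S) : g * m * g ∈ K := by
  have : closure S ≤ K.comap (MulAut.conj g).toMonoidHom := (closure_le _).2 fun t ht => by
    simpa [inv_eq g2] using q t ht
  simpa [inv_eq g2] using this hm

theorem me (e : a = b) (hb : b ∈ D) : a ∈ D := e ▸ hb

theorem inv_ind {S : Set G} {P : G → Prop} (sq : ∀ s ∈ S, s * s = 1) (h1 : P 1)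
    (hs : ∀ s ∈ S, ∀ g ∈ closure S, P g → P (s * g)) (hw : w ∈ closure S) : P w := by
  induction hw using closure_induction_left with
  | one => exact h1
  | mul_left y hy g hg ih => exact hs _ hy _ hg ih
  | inv_mul_cancel y hy g hg ih => rw [inv_eq (sq _ hy)]; exact hs _ hy _ hg ih

theorem pair_ind {P : G → Prop} (u2 : u * u = 1) (x2 : x * x = 1) (h1 : P 1)
    (hu : ∀ g, P g → P (u * g)) (hx : ∀ g, P g → P (x * g)) (hw : w ∈ closure {u, x}) : P w :=
  inv_ind (by rintro _ (rfl | rfl); exacts [u2, x2]) h1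
    (by rintro _ (rfl | rfl) g -; exacts [hu g, hx g]) hw

namespace NT
variable (h : NT D)
include h

theorem s3_of (hc : c ∈ D) (hx : x ∈ D) (o : Op c x) (o3 : orderOf (c * x) = 3) : S3 D c x := by
  refine ⟨hc, hx, o, ?_⟩
  have := pow_orderOf_eq_one (c * x)
  rw [o3, show (c * x) ^ 3 = c * x * c * (x * c * x) by simp only [pow_succ, pow_zero, one_mul, mul_assoc],
    mul_eq_one_iff_eq_inv] at this
  rw [this]; simp [h.ri.inv hc, h.ri.inv hx, mul_assoc]

theorem s3' (he : e ∈ D) (hy : y ∈ D) (hc : c ∈ D) (hf : f ∈ D) (h1 : cm e y = c) (h2 : cm f c = y) :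
    S3 D e f := let k := h.ri.s3 he hy hc hf h1 h2; h.s3_of he hf k.1 k.2

theorem k2' (ha : a ∈ D) (hc : c ∈ D) (k : cm c a ∈ D) : ∃ x, cm x (cm c a) = c ∧ S3 D a x :=
  let ⟨x, hx, e, o, o3⟩ := h.ri.k2 h.fc ha hc k; ⟨x, e, h.s3_of ha hx o o3⟩

theorem n_mem (k : S3 D c x) : x * c * x ∈ D := h.cj k.l k.r
theorem n_sq (k : S3 D c x) : x * c * x * (x * c * x) = 1 := h.sq (h.n_mem k)
theorem n_l (k : S3 D c x) : x * c * x * c * (x * c * x) = x := by
  nth_rw 1 [← k.b]; simp only [mul_assoc, mm (h.sq k.l), mm (h.sq k.r), h.sq k.l, mul_one]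
theorem n_r (k : S3 D c x) : x * c * x * x * (x * c * x) = c := by
  have := h.n_l k.symm; rwa [k.b] at this

theorem s3_cj (k : S3 D c x) (g : G) : S3 D (g * c * g⁻¹) (g * x * g⁻¹) :=
  ⟨h.cn g k.l, h.cn g k.r, k.o.conj g, by simpa [mul_assoc] using congrArg (g * · * g⁻¹) k.b⟩

theorem cmc (ha : a ∈ D) (hb : b ∈ D) (n : ¬ Op a b) : cm a b = cm b a := by
  by_cases c : Commute a b
  · rw [cm_eq_one (h.sq ha) (h.sq hb) c, cm_eq_one (h.sq hb) (h.sq ha) c.symm]
  · exact (h.ri.cm_comm ha hb (h.sp' ha hb c n)).symm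

theorem p1 (k : S3 D c x) (l : Ln D c i) (q : cm i x ∈ D) :
    cm (cm i x) c = i ∧ x * c * x * i * (x * c * x) = cm i x := by
  obtain ⟨l1, q1⟩ := h.ri.f3_map k.r k.o l q
  obtain ⟨l2, q2⟩ := h.ri.f3_map k.l k.o.symm l1 q1
  have l3 := h.ri.ln_l l1.r k.l q1
  have l4 := h.ri.ln_l l.r k.r q
  have e1 := h.ri.mul_cm (b := x) l.r
  have e2 := h.ri.mul_cm (b := c) l1.r
  have e3 := h.ri.mul_cm (b := x) l2.r
  have a4 := h.ri.f3_inj k.r k.o l q l2
  generalize cm i x = j at *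
  generalize cm j c = u at *
  generalize cm u x = v at *
  have a1 : c * x * c * i * (c * x * c) = i * (j * u) := by
    rw [e2, show c * x * c * i * (c * x * c) = c * (x * (c * i * c) * x) * c by simp only [mul_assoc],
      cj2 l.c (h.sq k.l), ← e1, ← mul_assoc, l.c.eq]; simp only [mul_assoc]
  have a2 : x * c * x * i * (x * c * x) = i * (u * v) := by
    rw [show x * c * x * i * (x * c * x) = x * (c * (x * i * x) * c) * x by simp only [mul_assoc],
      ← e1, ← mul_assoc c, l.c.eq, show x * (i * c * j * c) * x =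
        x * i * x * (x * (c * j * c) * x) by simp only [mul_assoc, mm (h.sq k.r)], ← e2, ← e1, e3,
      ← mul_assoc x, l1.c.eq]
    simp only [mul_assoc, mm (h.sq l1.r)]
  have a3 : j = v := by
    rw [k.b, a2, l3.c.eq] at a1
    exact (mul_left_cancel (mul_left_cancel a1)).symm
  replace a4 := a4 a3
  refine ⟨a4.symm, ?_⟩
  rw [← k.b, a1, ← a4, l4.c.left_comm, h.sq l.r, mul_one]

/-- the opposite case -/
theorem lemO (hd : d ∈ D) (kc : Z D d c) (hs : s ∈ D) (e1 : cm s c = d) (e2 : cm x d = s)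
    (k : S3 D c x) (ku : W D d u) (cu : Commute c u) (o : Op u x) :
    cm s u ∈ D ∧ Z D (cm s u) u := by
  have hx := k.r
  have hu := ku.m
  have lx : Ln D x s := e2 ▸ h.ri.ln_l hx hd (e2 ▸ hs)
  have ks : W D d s := h.w_ln (e2 ▸ h.ri.ln_r hx hd (e2 ▸ hs))
  have n2 := h.n_sq k
  have p := h.p1 k.symm lx (e1 ▸ hd)
  rw [e1, k.b] at p
  have nd : x * c * x * d * (x * c * x) = s := by
    rw [← p.2]
    simp only [mul_assoc, mm (h.sq hx), mm (h.sq k.l), h.sq hx, mul_one, one_mul]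
  -- the members equivalent to `s` on lines through `x`
  have kj : ∀ {j}, Ln D x j → Sm D j s → W D d j ∧ cm j u ∈ D := fun {j} l e =>
    have := h.w_r ks e.symm hd l.r
    ⟨this, h.w_sp this hu ku.c fun q => l.not_comm h.ri hu o.symm q.symm⟩
  have key : ∀ {j}, Ln D x j → Sm D j s → Ln D x (cm (cm j u) x) ∧ Sm D (cm (cm j u) x) s := by
    intro j l e
    obtain ⟨wj, q⟩ := kj l e
    obtain ⟨l1, q1⟩ := h.ri.f3_map hu o.symm l q
    have l2 := h.ri.ln_r q hx q1
    have l3 := h.ri.ln_l q hx q1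
    have nc : ∀ {j}, Ln D x j → ¬ Commute j c := fun l r => l.not_comm h.ri k.l k.o.symm r.symm
    have q2 := h.w_sp wj k.l kc.c (nc l)
    have s2 := kc.z j wj (nc l)
    have p2 := (h.p1 k.symm l q2).1
    have l4 := h.ri.ln_l l.r k.l q2
    have l5 := h.ri.ln_l l.r hu q
    have c1 : Commute u (cm j c) := (h.sm_comm s2.symm hd q2 hu ku.c).symm
    have m1 : cm j u * cm (cm j u) x * cm j c ∈ D := by
      have m0 := h.cj (h.cj (h.cj l4.m hu) hx) l.r
      have c2 : Commute j (cm (cm j u) x) := comm_cm l5.c l.c.symm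
      have : j * (x * (u * (j * cm j c) * u) * x) * j = cm j u * cm (cm j u) x * cm j c := by
        calc _ = j * (x * (u * j * u) * x * (x * cm j c * x)) * j := by
              rw [mul_assoc u, mul_assoc j (cm j c), ← c1.eq]; simp only [mul_assoc, mm (h.sq hx)]
          _ = j * (x * j * x * (x * cm j u * x) * (cm j c * j)) * j := by
              rw [← h.ri.mul_cm l.r, ← h.ri.mul_cm q2, p2]; simp only [mul_assoc, mm (h.sq hx)]
          _ = _ := by
              rw [cj2 l.c (h.sq hx), ← h.ri.mul_cm q]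
              simp only [mul_assoc, mm (h.sq l.r), h.sq l.r, mul_one]
      rwa [this] at m0
    have l6 : Ln D (cm j c) (cm j u * cm (cm j u) x) := by
      have c3 := comm_of_sq (h.sq l3.m) (h.sq q2) (h.sq m1)
      exact ⟨q2, l3.m, c3.symm, c3.eq ▸ m1⟩
    have w1 := h.w_mul (l3.third h.ri) (h.w_cm wj hu ku.c q) (h.w_l (h.w_ln l6) s2 q2 hd)
    rw [mm (h.sq q)] at w1
    have s3 := kc.z _ w1 (nc l2)
    have p3 := (h.p1 k.symm l2 (h.w_sp w1 k.l kc.c (nc l2))).2
    rw [← p3, k.b] at s3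
    have s4 := h.sc2 s3 n2
    rw [nd] at s4
    refine ⟨l2, ?_⟩
    simpa only [mul_assoc, mm (h.sq hx), mm (h.sq k.l), h.sq hx, mul_one] using s4
  let T : Set G := {t | ∃ j, Ln D x j ∧ Sm D j s ∧ (t = j ∨ t = cm j u)}
  have Tc : ∀ t ∈ T, t ∈ D ∧ Commute s t := by
    rintro t ⟨j, l, e, rfl | rfl⟩
    · exact ⟨l.r, h.sm_c e.symm hs l.r⟩
    · exact ⟨(kj l e).2, h.sm_comm e l.r hs (kj l e).2 (h.ri.ln_l l.r hu (kj l e).2).c⟩
  have Mc : ∀ m ∈ closure T, ∀ z ∈ Ce D s, Commute m z := fun m hm z hz =>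
    ((closure_le (centralizer {z})).2 (fun t ht => mem_centralizer_singleton_iff.2
      (Ce.cm hz (Tc t ht).1 (Tc t ht).2).eq) hm |> mem_centralizer_singleton_iff.1)
  have Mu : ∀ m ∈ closure T, u * m * u ∈ closure T := fun m => mem_cl_cj (h.sq hu) (by
    rintro t ⟨j, l, e, rfl | rfl⟩
    · rw [← h.ri.mul_cm l.r]
      exact mul_mem (subset_closure ⟨t, l, e, .inl rfl⟩) (subset_closure ⟨t, l, e, .inr rfl⟩)
    · rw [cj2 (h.ri.ln_r l.r hu (kj l e).2).c (h.sq hu)]; exact subset_closure ⟨j, l, e, .inr rfl⟩)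
  have Mx : ∀ m ∈ closure T, x * m * x ∈ closure T := fun m => mem_cl_cj (h.sq hx) (by
    rintro t ⟨j, l, e, rfl | rfl⟩
    · rw [cj2 l.c (h.sq hx)]; exact subset_closure ⟨t, l, e, .inl rfl⟩
    · rw [← h.ri.mul_cm (kj l e).2]
      exact mul_mem (subset_closure ⟨j, l, e, .inr rfl⟩)
        (subset_closure ⟨_, (key l e).1, (key l e).2, .inl rfl⟩))
  have Me : ∀ m ∈ closure T, m⁻¹ * (x * m * x) ∈ Ce D s := fun m hm => by
    induction hm using closure_induction with
    | mem t ht =>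
      obtain ⟨j, l, e, rfl | rfl⟩ := ht
      · rw [cj2 l.c (h.sq hx), inv_mul_cancel]; exact one_mem _
      · rw [← h.ri.mul_cm (kj l e).2, inv_mul_cancel_left]
        exact h.sm_ce (key l e).2 hs (key l e).1.r
    | one => simpa [h.sq hx] using one_mem _
    | mul a b ha hb i1 i2 =>
      have := mul_mem i1 i2
      rwa [← mul_assoc, ← (Mc _ (inv_mem hb) _ i1).eq, show b⁻¹ * (a⁻¹ * (x * a * x)) * (x * b * x) =
        (a * b)⁻¹ * (x * (a * b) * x) by simp [mul_assoc, mm (h.sq hx)]] at this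
    | inv a ha i1 =>
      have := inv_mem i1
      rwa [← cjc (Mc _ ha _ this),
        show a * (a⁻¹ * (x * a * x))⁻¹ * a⁻¹ = a⁻¹⁻¹ * (x * a⁻¹ * x) by
          simp [mul_assoc, h.ri.inv hx]] at this
  obtain ⟨w, hw, wm, we⟩ := h.ri.swap hu hx o
  have w2 := h.sq hw
  have m1 : w * s * w ∈ closure T := by
    have := pair_ind (P := fun g => g * s * g⁻¹ ∈ closure T) (h.sq hu) (h.sq hx)
      (by simpa using Subgroup.subset_closure (k := T) ⟨s, lx, rfl, .inl rfl⟩)
      (fun g k => by simpa [mul_assoc, h.ri.inv hu] using Mu _ k)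
      (fun g k => by simpa [mul_assoc, h.ri.inv hx] using Mx _ k) wm
    rwa [h.ri.inv hw] at this
  have q := (kj lx rfl).2
  have m2 := Me _ m1
  rw [h.ri.inv (h.cj hs hw), ← h.ri.mul_cm (h.cj hs hw), mm (h.sq (h.cj hs hw)), ← we, cm_cj w2] at m2
  have s1 := h.sc2 (h.sm_of_ce hs (h.cj q hw) m2) w2
  have z1 := h.z_cj (h.z_cj kc n2) w2
  rw [nd, h.n_l k, ← we] at z1
  simp only [mul_assoc, mm w2, w2, mul_one] at z1 s1
  exact ⟨q, by simpa only [mul_assoc] using h.z_l z1 s1.symm (by simpa [mul_assoc] using h.cj hs hw) (by simpa [mul_assoc] using q)⟩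

end NT
end CF.Rt2
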