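/-
Root involutions: the isolated members generate a group of class two.
-/
import Cfsg.Agent.RI2.B
set_option autoImplicit false
set_option linter.unusedSectionVars false

namespace CF.Rt2
open Subgroup Cfsg CF.BG CF.Rt
open scoped commutatorElement

variable {G : Type*} [Group G] [Finite G] {D : Set G}
variable {a b c d d' e f g i j m n s t u v w x y z : G}

namespace NT
variable (h : NT D)
include h

theorem cm_fix (k : S3 D c x) (l : Ln D c d) (q : cm d x ∈ D) :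
    x * c * x * cm d x * (x * c * x) = d := by
  rw [← (h.p1 k l q).2]
  simp only [mul_assoc, mm (h.sq k.r), mm (h.sq k.l), h.sq k.r, mul_one, one_mul]

/-- the special case -/
theorem lemI (hd : d ∈ D) (kc : Z D d c) (hs : s ∈ D) (e1 : cm s c = d) (e2 : cm x d = s)
    (k : S3 D c x) (ke : W D d e) (kf : W D d f) (e3 : cm e f = c) (q : cm e x ∈ D) :
    ∃ y, S3 D y f ∧ ¬ Commute d y ∧ cm d y = cm s e ∧ ¬ Commute f (cm s e) := by
  have hx := k.r
  have ks : W D d s := h.w_ln (e2 ▸ h.ri.ln_r hx hd (e2 ▸ hs))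
  have le : Ln D c e := (e3 ▸ h.ri.ln_l ke.m kf.m (e3 ▸ k.l)).symm
  have ld : Ln D c d := e1 ▸ h.ri.ln_r hs k.l (e1 ▸ hd)
  have e2' : cm d x = s := (h.ri.cm_comm hx hd (e2 ▸ hs)).trans e2
  obtain ⟨p1, p2⟩ := h.p1 k le q
  have p3 := h.cm_fix k ld (e2' ▸ hs)
  rw [e2'] at p3
  have ly := h.ri.ln_l ke.m hx q
  have o' := h.s3' kf.m ke.m k.l q ((h.ri.cm_comm ke.m kf.m (e3 ▸ k.l)).trans e3) p1
  have o := o'.o
  have n2 := h.n_sq k
  have a1 := cm_cj n2 s e
  rw [p3, p2] at a1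
  have a2 : Commute c (cm s e) := h.z_comm hd kc ks ke
  have a3 : Commute x (cm d (cm e x)) := by
    have := a2.conj (x * c * x)
    rwa [inv_eq n2, h.n_l k, ← a1] at this
  have a4 := h.ri.mul_cm (b := c) q
  rw [p1] at a4
  generalize cm e x = y at *
  have a5 : Commute c (cm d y) := comm_of_cj (h.sq k.l) (by
    rw [← cm_cj (h.sq k.l), cj2 ld.c (h.sq k.l), ← a4, cm, cm]
    simp only [mul_assoc]
    rw [← ly.c.eq, ke.c.left_comm, mm (h.sq ke.m)])
  have a6 : cm d y = cm s e := by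
    have := cj2 ((a3.mul_left a5).mul_left a3) n2
    rw [← this, a1]
    simp only [mul_assoc, mm (h.sq k.r), mm (h.sq k.l), h.sq k.r, mul_one, one_mul]
  have n1 : ¬ Commute d y := fun r => kf.n y q r o
  refine ⟨y, o'.symm, n1, a6, fun r => ?_⟩
  have m : cm d y ∈ D := by
    by_cases r : Commute s e
    · rw [cm_eq_one (h.sq hs) (h.sq ke.m) r] at a6
      exact absurd (comm_of_sq (h.sq hd) (h.sq q) a6) n1
    · exact a6 ▸ h.w_sp ks ke.m ke.c r
  exact (h.ri.ln_r hd q m).not_comm h.ri kf.m o.symm (a6 ▸ r)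

theorem cm_sq' (ka : W D d a) (hb : b ∈ D) (c : Commute d b) : cm a b * cm a b = 1 := by
  by_cases n : Commute a b
  · rw [cm_eq_one (h.sq ka.m) (h.sq hb) n, one_mul]
  · exact h.sq (h.w_sp ka hb c n)

/-- the Hall-Witt relation -/
theorem hw (hd : d ∈ D) (kc : Z D d c) (ks : W D d s) (e1 : cm s c = d)
    (ke : W D d e) (kf : W D d f) (e3 : cm e f = c) (r3 : cm f (cm s e) ∈ Ce D d) :
    cm e (cm s f) = cm f (cm s e) * d := by
  have s2 := h.sq ks.m; have e2 := h.sq ke.m; have f2 := h.sq kf.m; have c2 := h.sq kc.m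
  have a1 : s * e * s = e * cm s e := by rw [h.cmc ks.m ke.m (ks.n _ ke.m ke.c), h.ri.mul_cm ke.m]
  have a2 : s * f * s = f * cm s f := by rw [h.cmc ks.m kf.m (ks.n _ kf.m kf.c), h.ri.mul_cm kf.m]
  have a3 : s * c * s = c * d := by
    rw [← e1, h.cmc ks.m kc.m (ks.n _ kc.m kc.c), h.ri.mul_cm kc.m]
  have a4 : e * f * e = f * c := by
    rw [← e3, h.cmc ke.m kf.m (ke.n _ kf.m kf.c), h.ri.mul_cm kf.m]
  have k2 := h.cm_sq' ks ke.m ke.c
  have v2 := h.cm_sq' ks kf.m kf.c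
  have a5 : cm s e * f * cm s e = f * cm f (cm s e) := by simp only [cm, mul_assoc, mm f2]
  have c1 : Commute c (cm s f) := h.z_comm hd kc ks kf
  have c3 : Commute c f := (e3 ▸ h.ri.ln_r ke.m kf.m (e3 ▸ kc.m)).c.symm
  have c4 : Commute s (cm s f) := by
    by_cases n : Commute s f
    · rw [cm_eq_one s2 f2 n]; exact Commute.one_right s
    · exact (h.ri.ln_l ks.m kf.m (h.w_sp ks kf.m kf.c n)).c
  have c5 : Commute e (cm s e) := by
    by_cases n : Commute s e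
    · rw [cm_eq_one s2 e2 n]; exact Commute.one_right e
    · exact (h.ri.ln_r ks.m ke.m (h.w_sp ks ke.m ke.c n)).c
  have b1 := ks.ce r3; have b2 := ke.ce r3; have b3 := kf.ce r3; have b4 := kc.ce r3
  have b5 : Commute (cm s f) (cm f (cm s e)) := (comm_cm b1.symm b3.symm).symm
  have d1 : Commute d (cm s f) := comm_cm ks.c kf.c
  have a6 := cm_cj s2 e (cm s f)
  rw [cj2 c4 s2] at a6
  generalize cm s e = k at *
  generalize cm s f = v at *
  generalize cm f k = r at *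
  have t1 : s * e * s * f * (s * e * s) = f * c * r := by
    rw [a1]; nth_rw 2 [c5.eq]
    calc _ = e * (k * f * k) * e := by simp only [mul_assoc]
      _ = _ := by rw [a5, mul_assoc, mul_assoc, ← b2.eq, ← a4]; simp only [mul_assoc]
  have t2 : s * e * s * (f * v) * (s * e * s) = f * v * (c * d) := by
    rw [← a2, ← a3]
    calc _ = s * (e * f * e) * s := by simp only [mul_assoc, mm s2]
      _ = _ := by rw [a4]; simp only [mul_assoc, mm s2]
  have t3 : cm (s * e * s) v = r * d := by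
    calc _ = s * e * s * f * (s * e * s) * (s * e * s * (f * v) * (s * e * s)) * v := by
          simp only [cm, mul_assoc, mm s2, mm e2, mm f2]
      _ = _ := by
          rw [t1, t2]
          simp only [mul_assoc, ← b3.left_comm, c3.left_comm, mm f2, ← b5.left_comm, c1.left_comm,
            ← b4.left_comm, mm c2, d1.eq, mm v2]
  rw [t3] at a6
  have := congrArg (s * · * s) a6
  simp only [mul_assoc, mm s2, s2, mul_one] at this
  rw [cm, mul_assoc, ← this, ← mul_assoc, ← mul_assoc, mul_assoc s, cj2 (b1.mul_right ks.c.symm) s2]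

/-- one half of the type analysis -/
theorem ty1 (hd : d ∈ D) (kc : Z D d c) (hs : s ∈ D) (e1 : cm s c = d) (e2 : cm x d = s)
    (k : S3 D c x) (ke : W D d e) (kf : W D d f) (e3 : cm e f = c) : ¬ Commute f (cm s e) := by
  have ks : W D d s := h.w_ln (e2 ▸ h.ri.ln_r k.r hd (e2 ▸ hs))
  have le : Ln D e c := e3 ▸ h.ri.ln_l ke.m kf.m (e3 ▸ k.l)
  by_cases o : Op e x
  · intro r
    obtain ⟨m, z1⟩ := h.lemO hd kc hs e1 e2 k ke le.c.symm o
    have z2 := h.z_cj z1 (h.sq kf.m)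
    rw [cj2 r (h.sq kf.m), ← h.ri.mul_cm ke.m, e3] at z2
    have z3 := h.z_mul m (le.third h.ri) z1 z2
    rw [mm (h.sq ke.m)] at z3
    have nc : ¬ Commute s c := h.ri.not_comm hs k.l (e1 ▸ hd)
    have s1 := z3.z s (h.w_ln (h.ri.ln_l hs ke.m m).symm) nc
    rw [e1] at s1
    have s2 := (h.z_l z1 s1.symm m hd).z f kf fun q => h.ri.not_comm ke.m kf.m (e3 ▸ k.l) q.symm
    rw [h.ri.cm_comm ke.m kf.m (e3 ▸ k.l), e3] at s2
    exact nc (h.sm_comm s2.symm hd k.l hs ks.c).symm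
  · obtain ⟨y, -, -, -, r⟩ := h.lemI hd kc hs e1 e2 k ke kf e3 (h.ri.sp_of le.symm k.r k.o o)
    exact r

theorem types (hd : d ∈ D) (kc : Z D d c) (ks : W D d s) (e1 : cm s c = d) (ke : W D d e)
    (kf : W D d f) (e3 : cm e f = c) (kk : cm s e ∈ D → Z D d (cm s e)) :
    cm s e ∈ D ∧ ¬ Commute f (cm s e) ∧ ¬ Commute e (cm s f) ∧ cm e (cm s f) ∈ Ce D d ∧
      Z D (cm s e) e := by
  obtain ⟨x, e2, k⟩ := h.k2' kc.m ks.m (e1 ▸ hd)
  rw [e1] at e2
  have n1 := h.ty1 hd kc ks.m e1 e2 k ke kf e3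
  have n2 := h.ty1 hd kc ks.m e1 e2 k kf ke ((h.ri.cm_comm ke.m kf.m (e3 ▸ k.l)).trans e3)
  have m : cm s e ∈ D := h.w_sp ks ke.m ke.c fun r => n1 (by
    rw [cm_eq_one (h.sq ks.m) (h.sq ke.m) r]; exact Commute.one_right f)
  have m' : cm s f ∈ D := h.w_sp ks kf.m kf.c fun r => n2 (by
    rw [cm_eq_one (h.sq ks.m) (h.sq kf.m) r]; exact Commute.one_right e)
  have r3 := h.z_ce hd (kk m) kf
  have r := h.hw hd kc ks e1 ke kf e3 r3
  have r2 : cm e (cm s f) ∈ Ce D d := r ▸ mul_mem r3 h.ce_self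
  refine ⟨m, n1, n2, r2, ?_⟩
  have le : Ln D e c := e3 ▸ h.ri.ln_l ke.m kf.m (e3 ▸ k.l)
  by_cases o : Op e x
  · exact (h.lemO hd kc ks.m e1 e2 k ke le.c.symm o).2
  obtain ⟨y, hy, y1, y2, -⟩ := h.lemI hd kc ks.m e1 e2 k ke kf e3 (h.ri.sp_of le.symm k.r k.o o)
  exfalso
  have m2 : cm e (cm s f) ∈ D := h.w_sp ke m' (comm_cm ks.c kf.c) n2
  have m3 : cm f (cm s e) ∈ D := h.w_sp kf m (comm_cm ks.c ke.c) n1
  have l1 := h.ri.ln_r hd hy.l (y2 ▸ m)
  have l2 := h.ri.ln_l hd hy.l (y2 ▸ m)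
  have c1 := h.ri.cm_comm kf.m m m3
  have b1 := h.ri.mul_cm (b := y) hd
  rw [y2] at l1 l2 b1
  have b2 := h.ri.mul_cm (b := y) m3
  rw [← c1, (h.p1 hy l1 (c1 ▸ m3)).1, c1] at b2
  refine y1 (h.sm_comm (h.sm_of_ce hd m2 r2) m2 hd hy.l (comm_of_cj (h.sq hy.l) ?_).symm)
  rw [r]
  generalize cm s e = k at *
  generalize cm f k = p at *
  calc _ = y * p * y * (y * d * y) := by simp only [mul_assoc, mm (h.sq hy.l)]
    _ = _ := by rw [← b1, ← b2, l2.c.eq]; simp only [mul_assoc, mm (h.sq m)]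

theorem c1 (hd : d ∈ D) (ke : W D d e) : Z D d e := by
  by_contra n0
  obtain ⟨e, ke, n, kz⟩ : ∃ e, W D d e ∧ ¬ Z D d e ∧ ∀ m, W D d m → cm m e ∈ D → Z D d (cm m e) := by
    by_contra q
    push Not at q
    haveI : Fact (Nat.Prime 2) := ⟨Nat.prime_two⟩
    haveI := (h.w_two d).isPGroup.isNilpotent
    have key : ∀ i, ∃ e : closure {w | W D d w}, W D d e ∧ ¬ Z D d e ∧
        e ∈ (⊤ : Subgroup (closure {w | W D d w})).lowerCentralSeries i := fun i => by
      induction i with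
      | zero => exact ⟨⟨e, subset_closure ke⟩, ke, n0, mem_top _⟩
      | succ i ih =>
        obtain ⟨e, ke, n, r⟩ := ih
        obtain ⟨m, km, m1, m2⟩ := q e ke n
        have c := h.ri.cm_comm km.m ke.m m1
        have e1 : ((⁅e, (⟨m, subset_closure km⟩ : closure {w | W D d w})⁆ : closure {w | W D d w}) : G) =
            cm m e := by
          rw [← c]; simp [commutatorElement_def, h.ri.inv km.m, h.ri.inv ke.m, mul_assoc]
        exact ⟨_, e1 ▸ h.w_cm km ke.m ke.c m1, e1 ▸ m2, commutator_mem_commutator r (mem_top _)⟩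
    obtain ⟨i, hi⟩ := Subgroup.nilpotent_iff_lowerCentralSeries.1 this
    obtain ⟨e, ke, -, r⟩ := key i
    rw [hi, mem_bot] at r
    exact h.ne ke.m (by rw [r]; rfl)
  obtain ⟨f, kf, n1, n2⟩ : ∃ f, W D d f ∧ ¬ Commute f e ∧ ¬ Sm D (cm f e) d := by
    by_contra q
    push Not at q
    exact n ⟨ke, q⟩
  have mc := h.w_sp kf ke.m ke.c n1
  have kc := kz f kf mc
  have e3 := h.ri.cm_comm kf.m ke.m mc
  obtain ⟨c, hc⟩ : ∃ c, cm f e = c := ⟨_, rfl⟩
  rw [hc] at n2 mc kc e3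
  obtain ⟨s, l, n3⟩ : ∃ s, Ln D d s ∧ ¬ Commute c s := by
    by_contra q
    push Not at q
    exact n2 (h.sm_of_w hd kc.toW q)
  have ks := h.w_ln l
  have md := h.w_sp ks mc kc.c fun r => n3 r.symm
  have sd := (kc.z s ks fun r => n3 r.symm).symm
  replace kz : ∀ m, W D (cm s c) m → cm m e ∈ D → Z D (cm s c) (cm m e) := fun m km r =>
    h.z_l (kz m (h.w_l km sd.symm md hd) r) sd hd md
  replace ke := h.w_l ke sd hd md
  replace kf := h.w_l kf sd hd md
  replace ks := h.w_l ks sd hd md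
  replace kc := h.z_l kc sd hd md
  obtain ⟨d, e1⟩ : ∃ d, cm s c = d := ⟨_, rfl⟩
  rw [e1] at kz ke kf ks kc md
  obtain ⟨m, n4, n5, r2, -⟩ := h.types md kc ks e1 ke kf e3 (kz s ks)
  have kk := kz s ks m
  have m3 := h.w_sp kf m kk.c n4
  have s3 := (kk.z f kf n4).symm
  have z1 := (h.types m3 (h.z_l kk s3 md m3) (h.w_l kf s3 md m3) rfl (h.w_l ke s3 md m3)
    (h.w_l ks s3 md m3) (h.ri.cm_comm ks.m ke.m m) fun _ => hc ▸ h.z_l kc s3 md m3).2.2.2.2
  rw [hc] at z1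
  have e1' : cm c s = d := (h.ri.cm_comm ks.m mc (e1 ▸ md)).trans e1
  obtain ⟨x, e2, k⟩ := h.k2' ks.m mc (e1' ▸ md)
  rw [e1'] at e2
  have lx : Ln D x c := e2 ▸ h.ri.ln_l k.r md (e2 ▸ mc)
  have kx := h.w_ln lx.symm
  have mv : cm s f ∈ D := h.w_sp ks kf.m kf.c fun r => n5 (by
    rw [cm_eq_one (h.sq ks.m) (h.sq kf.m) r]; exact Commute.one_right e)
  have lv := h.ri.ln_l ks.m kf.m mv
  have cv := h.z_comm md kc ks kf
  have q := h.ri.sp_of lv k.r k.o fun o => kx.n _ mv cv o.symm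
  have ld : Ln D s d := e1 ▸ h.ri.ln_l ks.m mc (e1 ▸ md)
  have e2' : cm d x = c := (h.ri.cm_comm k.r md (e2 ▸ mc)).trans e2
  have p1 := (h.p1 k ld (e2' ▸ mc)).2
  have p2 := (h.p1 k lv q).2
  have n2 := h.n_sq k
  have w1 := h.w_cj ks n2
  have w2 := h.w_cj kf n2
  rw [p1, e2'] at w1 w2
  have c1 := h.z_comm mc z1 w1 w2
  rw [cm_cj n2, p2] at c1
  have c2 := (h.ri.ln_l mv k.r q).c
  have z2 := h.z_ce mc z1 kx
  rw [h.cmc k.r ke.m (kx.n _ ke.m z1.c)] at z2
  have b1 := h.ri.mul_cm (b := x) mv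
  have b2 := h.ri.mul_cm (b := x) ke.m
  have c3 := Ce.cm z2 mv cv
  have c4 := z1.ce z2
  have c5 := Ce.cm z2 q (comm_cm cv kx.c)
  have z3 := h.cm_sq' z1.toW k.r kx.c
  have q2 := h.sq q
  have m2 : cm e (cm s f) ∈ D := h.w_sp ke mv (comm_cm ks.c kf.c) n5
  refine h.ri.not_comm k.r md (e2 ▸ mc)
    (h.sm_comm (h.sm_of_ce md m2 r2) m2 md k.r (comm_of_cj (h.sq k.r) ?_).symm).symm
  rw [← cm_cj (h.sq k.r), ← b1, ← b2]
  generalize cm s f = v at *
  generalize cm v x = p at *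
  generalize cm e x = z at *
  simp only [cm, mul_assoc, ← c3.left_comm, ← c4.left_comm, ← c5.left_comm, mm z3, ← c1.left_comm,
    ← c2.left_comm, q2, mul_one]

end NT
end CF.Rt2
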