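/-
Root involutions: the structure of the isolated members when the classes are subgroups.
-/
import Cfsg.Agent.RI2.C
set_option autoImplicit false
set_option linter.unusedSectionVars false

namespace CF.Rt2
open Subgroup Cfsg CF.BG CF.Rt
open scoped commutatorElement

variable {G : Type*} [Group G] [Finite G] {D : Set G}
variable {a b c d d' e f g i j m n s t u v w x y z : G}

/-- products of two equivalent members are members -/
def HE (D : Set G) : Prop := ∀ ⦃d e : G⦄, d ∈ D → e ∈ D → Sm D d e → d ≠ e → d * e ∈ D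

theorem nt_of (hD : IsNondegenerateRootInvolutionSet D) (cl : IsRootInvolutionClass D) : NT D :=
  ⟨nc_of hD cl, cl.1.generates⟩

theorem iso_iff : IsIsolatedElem (OddAdj (commutingMembers D d)) (commutingMembers D d) w ↔ W D d w :=
  isolated_iff.trans ⟨fun k => ⟨k.1.1, k.1.2.symm, fun x hx c => k.2 x ⟨hx, c.symm⟩⟩,
    fun k => ⟨⟨k.m, k.c.symm⟩, fun x hx => k.n x hx.1 hx.2.symm⟩⟩

namespace NT
variable (h : NT D)
include h

theorem mem_scc (hd : d ∈ D) : e ∈ sameCommutingClass D d ↔ e ∈ D ∧ Sm D e d := by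
  refine and_congr_right fun he => ⟨fun k => h.sm_of_ce hd he (mem_Ce.2 fun x hx c => ?_), fun k => ?_⟩
  · exact (k ▸ (⟨hx, c.symm⟩ : x ∈ commutingMembers D d) : x ∈ commutingMembers D e).2
  · ext x
    exact and_congr_right fun hx => ⟨fun c => (h.sm_comm k.symm hd he hx c.symm).symm,
      fun c => (h.sm_comm k he hd hx c.symm).symm⟩

theorem w_sm' (hd : d ∈ D) (ka : W D d a) (kb : W D d b) (n : ¬ Commute a b) : Sm D (cm a b) d :=
  (h.c1 hd kb).z a ka n

theorem w_ex (hd : d ∈ D) (k : W D d w) (n : ¬ Sm D w d) :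
    ∃ s, Ln D d s ∧ cm s w ∈ D ∧ Sm D (cm s w) d := by
  obtain ⟨s, l, q⟩ : ∃ s, Ln D d s ∧ ¬ Commute w s := by
    by_contra q
    push Not at q
    exact n (h.sm_of_w hd k q)
  exact ⟨s, l, h.w_sp (h.w_ln l) k.m k.c fun r => q r.symm, h.w_sm' hd (h.w_ln l) k fun r => q r.symm⟩

theorem ln_of_w (he : HE D) (hd : d ∈ D) (k : W D d w) (n : w ≠ d) : Ln D d w := by
  by_cases e : Sm D w d
  · exact ⟨hd, k.m, k.c, he hd k.m e.symm n.symm⟩
  obtain ⟨s, l, m, s1⟩ := h.w_ex hd k e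
  obtain ⟨x, e2, k3⟩ := h.k2' k.m l.r m
  have l1 := h.ri.ln_r l.r k.m m
  have e2' := (h.ri.cm_comm k3.r m (me e2 l.r)).trans e2
  have b0 := h.ri.mul_cm (b := x) m
  have p := (h.p1 k3 l1 (me e2' l.r)).2
  have n2 := h.n_sq k3
  have s2 := h.sc2 s1 n2
  rw [p, e2'] at s2
  rw [e2'] at b0
  have m1 := h.cj hd (h.n_mem k3)
  have q := h.sm_sp s2 l.r m1 k.m m
  have w1 := h.w_r (h.w_ln l) s2 hd m1
  have s3 := h.w_sm' hd w1 k (h.ri.not_comm m1 k.m q)
  have l2 := h.ri.ln_r m1 k.m q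
  have q2 := h.sm_sp (s1.trans s3.symm) m q k3.r (me e2' l.r)
  have p2 := (h.p1 k3 l2 q2).1
  have b1 := h.ri.mul_cm (b := w) m1
  have b2 := h.ri.mul_cm (b := x) q
  have b3 := h.ri.mul_cm (b := w) q2
  rw [p2] at b3
  have b4 : w * (x * w * x * d * (x * w * x)) * w = x * d * x := by
    rw [← k3.b]; simp only [mul_assoc, mm (h.sq k.m), h.sq k.m, mul_one, ← k.c.left_comm]
  have c1 := (h.ri.ln_l m1 k.m q).c
  have c2 := (h.ri.ln_l q k3.r q2).c
  have c3 := (h.ri.ln_l l.r k.m m).c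
  generalize x * w * x * d * (x * w * x) = s' at *
  generalize cm s' w = i at *
  generalize cm i x = j at *
  by_cases e3 : d = i
  · exact (e3 ▸ l2).symm
  exfalso
  have m2 := he hd q s3.symm e3
  have s4 := h.sc2 ((h.sm_of_ce hd m2 (mul_mem h.ce_self (h.sm_ce s3 hd q))).trans s1.symm) (h.sq k3.r)
  have c4 : Commute (x * (d * i) * x) w := (comm_of_cj (h.sq k.m) (by
    have : x * (d * i) * x = s' * j := by
      calc _ = x * d * x * (x * i * x) := by simp only [mul_assoc, mm (h.sq k3.r)]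
        _ = _ := by rw [← b4, ← b1, ← b2]; simp only [mul_assoc, mm (h.sq q)]
    rw [this]
    calc _ = w * s' * w * (w * j * w) := by simp only [mul_assoc, mm (h.sq k.m)]
      _ = _ := by rw [← b1, ← b3, ← c2.eq]; simp only [mul_assoc, mm (h.sq q)])).symm
  have c5 := h.sm_comm s4 (h.cj m2 k3.r) (h.cj m k3.r) k.m c4
  rw [← b0] at c5
  refine h.ri.not_comm l.r k.m m ?_
  have := l1.c.symm.mul_left c5
  rwa [mm (h.sq m)] at this

theorem w_iff (he : HE D) (hd : d ∈ D) : W D d w ↔ w ∈ productPartners D d ∪ {d} := by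
  refine ⟨fun k => ?_, ?_⟩
  · by_cases n : w = d
    · exact .inr n
    · exact .inl ((h.ri.mem_partners hd).2 (h.ln_of_w he hd k n))
  · rintro (k | rfl)
    · exact h.w_ln ((h.ri.mem_partners hd).1 k)
    · exact h.w_self hd

theorem w_of_mem (hw : w ∈ D) (k : w ∈ closure {w | W D d w}) : W D d w := by
  refine ⟨hw, ((closure_le (centralizer {d})).2 (fun t ht => mem_centralizer_singleton_iff.2
      ht.c.symm.eq) k |> mem_centralizer_singleton_iff.1).symm, fun x hx c o => ?_⟩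
  refine o.not_mem (h.sq hw) (h.sq hx) (h.w_two d) ?_
  have := mul_mem k (mem_cl_cj (h.sq hx) (fun t ht => subset_closure (h.w_cc ht (h.sq hx) c.symm)) k)
  simpa only [cm, mul_assoc] using this

theorem ex_cm (hd : d ∈ D) : ∃ c a, Ln D d c ∧ Ln D d a ∧ cm c a = d := by
  obtain ⟨b, hb, k⟩ := h.exists_sp hd
  have l := (h.ri.ln_l hd hb k).symm
  obtain ⟨c, hc, e⟩ := h.ri.k1 h.fc l (h.ri.AA_ne h.fc hb hd k)
  exact ⟨c, _, (e ▸ h.ri.ln_l hc k (me e hd)).symm, l.symm, e⟩

theorem ce_w (hz : z ∈ Ce D d) (k : w ∈ closure {w | W D d w}) : Commute w z :=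
  ((closure_le (centralizer {z})).2 (fun t ht => mem_centralizer_singleton_iff.2
      (W.ce ht hz).eq) k |> mem_centralizer_singleton_iff.1)

theorem scs_le (hd : d ∈ D) : sameCommutingSubgroup D d ≤ Ce D d :=
  (closure_le _).2 fun _ k => h.sm_ce ((h.mem_scc hd).1 k).2 hd k.1

theorem der (hd : d ∈ D) :
    ⁅closure {w | W D d w}, closure {w | W D d w}⁆ = sameCommutingSubgroup D d := by
  have ce := fun {z w} (hz : z ∈ sameCommutingSubgroup D d) => h.ce_w (w := w) (h.scs_le hd hz)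
  refine le_antisymm (commutator_le.2 fun a ha b hb => ?_) ((closure_le _).2 fun e he => ?_)
  · have sq : ∀ s ∈ {w | W D d w}, s * s = 1 := fun s k => h.sq k.m
    refine inv_ind (P := fun a => ⁅a, b⁆ ∈ sameCommutingSubgroup D d) sq (by simp)
      (fun a ha a' _ ih => ?_) ha
    rw [show ⁅a * a', b⁆ = a * ⁅a', b⁆ * a⁻¹ * ⁅a, b⁆ by group, cjc (ce ih (subset_closure ha))]
    refine mul_mem ih (inv_ind (P := fun b => ⁅a, b⁆ ∈ sameCommutingSubgroup D d) sq (by simp)
      (fun b hb b' _ ih => ?_) hb)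
    rw [show ⁅a, b * b'⁆ = ⁅a, b⁆ * (b * ⁅a, b'⁆ * b⁻¹) by group, cjc (ce ih (subset_closure hb))]
    refine mul_mem ?_ ih
    by_cases n : Commute a b
    · rw [commutatorElement_eq_one_iff_commute.2 n]; exact one_mem _
    · rw [commutatorElement_def, h.ri.inv ha.m, h.ri.inv hb.m, mul_assoc]
      exact subset_closure ((h.mem_scc hd).2 ⟨h.w_sp ha hb.m hb.c n, h.w_sm' hd ha hb n⟩)
  · obtain ⟨he, s⟩ := (h.mem_scc hd).1 he
    obtain ⟨c, a, l1, l2, rfl⟩ := h.ex_cm he
    have := commutator_mem_commutator (Subgroup.subset_closure (k := {w | W D d w}) (h.w_l (h.w_ln l1) s he hd))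
      (Subgroup.subset_closure (k := {w | W D d w}) (h.w_l (h.w_ln l2) s he hd))
    rwa [commutatorElement_def, h.ri.inv l1.r, h.ri.inv l2.r, mul_assoc] at this

end NT
end CF.Rt2
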