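/-
Root involutions: the groups `E(d)`, paths and special pairs.
-/
import Cfsg.Agent.RI2.D
set_option autoImplicit false
set_option linter.unusedSectionVars false

namespace CF.Rt2
open Subgroup Cfsg CF.BG CF.Rt
open scoped commutatorElement

variable {G : Type*} [Group G] [Finite G] {D : Set G}
variable {a b c d d' e f g i j k m n p s t u v w x y z : G}

/-- the group generated by the isolated members -/
abbrev Q (D : Set G) (d : G) : Subgroup G := closure {w | W D d w}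
/-- the group generated by the class of `d` -/
abbrev E (D : Set G) (d : G) : Subgroup G := sameCommutingSubgroup D d

/-- a path of length three between the members of a pair generating `S₃` -/
structure Pt (D : Set G) (e a g x : G) : Prop extends S3 D e x where
  hb : a ∈ D
  hg : g ∈ D
  e1 : cm g e = a
  e2 : cm a x = g

theorem Pt.symm (p : Pt D e b g x) : Pt D x g b e := ⟨p.toS3.symm, p.hg, p.hb, p.e2, p.e1⟩
theorem W.q (k : W D d w) : w ∈ Q D d := subset_closure k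
theorem mul_cm' (a2 : a * a = 1) (b : G) : a * cm a b = b * a * b := by simp only [mul_assoc, mm a2]
theorem cm_eq (a2 : a * a = 1) (b2 : b * b = 1) : cm a b = ⁅a, b⁆ := by
  rw [commutatorElement_def, inv_eq a2, inv_eq b2, mul_assoc]
theorem cm_swap (a2 : a * a = 1) (b2 : b * b = 1) (k : cm a b * cm a b = 1) : cm b a = cm a b := by
  rw [← inv_eq k]; simp [inv_eq a2, inv_eq b2, mul_assoc]
theorem cm_l (c : Commute u v) (c' : Commute v w) (v2 : v * v = 1) : cm (u * v) w = cm u w := by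
  simp only [cm, mul_assoc, c'.left_comm, ← c.left_comm, mm v2]
theorem cm_r (c : Commute u v) (c' : Commute v w) (v2 : v * v = 1) : cm w (u * v) = cm w u := by
  simp only [cm, mul_assoc, c'.left_comm, ← c.left_comm, v2, mul_one]
theorem sq_mul (c : Commute u v) (u2 : u * u = 1) (v2 : v * v = 1) : u * v * (u * v) = 1 := cm_eq_one u2 v2 c

namespace NT
variable (h : NT D)
include h

theorem mE (hd : d ∈ D) (he : e ∈ D) (k : Sm D e d) : e ∈ E D d := subset_closure ((h.mem_scc hd).2 ⟨he, k⟩)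
theorem mE' (hd : d ∈ D) : d ∈ E D d := h.mE hd hd rfl
theorem Ece (hd : d ∈ D) (k : z ∈ E D d) : z ∈ Ce D d := h.scs_le hd k
theorem Esm (hd : d ∈ D) (k : z ∈ E D d) (hz : z ∈ D) : Sm D z d := h.sm_of_ce hd hz (h.Ece hd k)
theorem Ec (hd : d ∈ D) (k : z ∈ E D d) (hy : y ∈ D) (c : Commute d y) : Commute y z :=
  Ce.cm (h.Ece hd k) hy c
theorem EQ (hd : d ∈ D) (k : z ∈ E D d) (hu : u ∈ Q D d) : Commute u z := h.ce_w (h.Ece hd k) hu
theorem E_le (hd : d ∈ D) (kp : W D d p) : E D p ≤ Q D d :=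
  (closure_le _).2 fun _ k => (h.w_r kp ((h.mem_scc kp.m).1 k).2.symm hd k.1).q
theorem E_ind {P : G → Prop} (hd : d ∈ D) (h1 : P 1)
    (hs : ∀ e ∈ D, Sm D e d → ∀ z ∈ E D d, P z → P (e * z)) (k : z ∈ E D d) : P z :=
  inv_ind (fun _ q => h.sq q.1) h1 (fun e q => hs e q.1 ((h.mem_scc hd).1 q).2) k
theorem EE (ha : a ∈ D) (hb : b ∈ D) (c : Commute a b) (ku : u ∈ E D a) (kv : v ∈ E D b) : Commute u v :=
  h.E_ind (P := fun u => Commute u v) ha (Commute.one_left v)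
    (fun _ he s _ _ i => (h.Ec hb kv he (h.sm_comm s.symm ha he hb c).symm).mul_left i) ku
theorem EE' (ha : a ∈ D) (ku : u ∈ E D a) (kv : v ∈ E D a) : Commute u v := h.EE ha ha (.refl a) ku kv
theorem Esq (hd : d ∈ D) (k : z ∈ E D d) : z * z = 1 :=
  h.E_ind (P := fun z => z * z = 1) hd (one_mul 1)
    (fun _ he s _ hz i => sq_mul (h.EE' hd (h.mE hd he s) hz) (h.sq he) i) k
theorem E_eq (k : Sm D a b) (ha : a ∈ D) (hb : b ∈ D) : E D a = E D b :=
  congrArg Subgroup.closure (Set.ext fun _ => (h.mem_scc ha).trans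
    (.trans (by rw [Sm, Sm, k]) (h.mem_scc hb).symm))
theorem E_conj (hd : d ∈ D) (k : z ∈ E D d) (g : G) : g * z * g⁻¹ ∈ E D (g * d * g⁻¹) :=
  h.E_ind (P := fun z => g * z * g⁻¹ ∈ E D (g * d * g⁻¹)) hd (by simp)
    (fun e he s _ _ i => by
      rw [← conj_mul]; exact mul_mem (h.mE (h.cn g hd) (h.cn g he) (h.sc s g)) i) k
theorem E_cj (hd : d ∈ D) (k : z ∈ E D d) (g2 : g * g = 1) : g * z * g ∈ E D (g * d * g) := by
  simpa [inv_eq g2] using h.E_conj hd k g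

theorem cmE (hd : d ∈ D) (hu : u ∈ Q D d) (hv : v ∈ Q D d) (u2 : u * u = 1) (v2 : v * v = 1) :
    cm u v ∈ E D d := cm_eq u2 v2 ▸ (h.der hd).le (commutator_mem_commutator hu hv)

theorem cms (hd : d ∈ D) (hu : u ∈ Q D d) (hv : v ∈ Q D d) (u2 : u * u = 1) (v2 : v * v = 1) :
    cm v u = cm u v := cm_swap u2 v2 (h.Esq hd (h.cmE hd hu hv u2 v2))

theorem bl (hd : d ∈ D) (hu : u ∈ Q D d) (hv : v ∈ Q D d) (hw : w ∈ Q D d) (c : Commute u v)
    (v2 : v * v = 1) (w2 : w * w = 1) : cm (u * v) w = cm u w * cm v w := by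
  have k := h.cmE hd hv hw v2 w2
  have e : cm (u * v) w = u * cm v w * (w * u * w) := by
    simp only [cm, mul_assoc, mm w2, c.left_comm]
  have c1 := h.EQ hd k hu
  have c2 := h.EQ hd k hw
  rw [e]; generalize cm v w = r at *
  simp only [cm, mul_assoc, ← c1.left_comm, ← c2.left_comm, c2.eq]

theorem br (hd : d ∈ D) (hu : u ∈ Q D d) (hv : v ∈ Q D d) (hw : w ∈ Q D d) (c : Commute u v)
    (u2 : u * u = 1) (v2 : v * v = 1) (w2 : w * w = 1) : cm w (u * v) = cm w u * cm w v := by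
  rw [h.cms hd (mul_mem hu hv) hw (sq_mul c u2 v2) w2, h.bl hd hu hv hw c v2 w2, h.cms hd hu hw u2 w2,
    h.cms hd hv hw v2 w2]

theorem w_symm (hd : d ∈ D) (k : W D d w) : W D w d := by
  by_cases e : Sm D w d
  · exact h.w_sm e.symm k.m hd
  · obtain ⟨s, l, m, q⟩ := h.w_ex hd k e
    exact h.w_r (h.w_ln (h.ri.ln_r l.r k.m m)) q k.m hd

theorem wl (ha : a ∈ D) (hb : b ∈ D) (k : cm a b ∈ D) : W D (cm a b) a := h.w_ln (h.ri.ln_l ha hb k).symm
theorem wr (ha : a ∈ D) (hb : b ∈ D) (k : cm a b ∈ D) : W D (cm a b) b := h.w_ln (h.ri.ln_r ha hb k).symm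
theorem ww (ka : W D d a) (kb : W D d b) (n : ¬ Commute a b) : cm a b ∈ D := h.w_sp ka kb.m kb.c n

theorem nsm (ha : a ∈ D) (hb : b ∈ D) (hs : s ∈ D) (c : Commute a s) (n : ¬ Commute b s) : ¬ Sm D a b :=
  fun k => n (h.sm_comm k ha hb hs c)

theorem EnD (ha : a ∈ D) (hb : b ∈ D) (n : ¬ Sm D a b) (k : z ∈ E D a) (k' : z ∈ E D b) : z ∉ D :=
  fun hz => n ((h.Esm ha k hz).symm.trans (h.Esm hb k' hz))

/-- the end points of a path without short cuts are opposite -/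
theorem path (hg : g ∈ D) (kb : W D g b) (ka : W D b a) (n : ¬ Commute a g) (ky : W D g y)
    (n' : ¬ Commute y b) : Op a y := by
  have kg := h.w_symm hg kb
  have m1 := h.ww kg ka fun q => n q.symm
  have s1 := h.w_sm' kb.m kg ka fun q => n q.symm
  have n1 : ¬ Commute y (cm g a) := fun q => n' (h.sm_comm s1 m1 kb.m ky.m q.symm).symm
  by_contra o
  have n2 : ¬ Commute a y := fun q => n1 (comm_cm ky.c.symm q.symm)
  have mc := h.sp' ka.m ky.m n2 o
  have k1 : W D g (cm g a) := h.w_r kb s1.symm hg m1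
  have e1 := h.cmE hg k1.q ky.q (h.sq m1) (h.sq ky.m)
  have e2 := h.cmE kb.m (h.E_le kb.m kg e1) ka.q (h.Esq hg e1) (h.sq ka.m)
  have k2 := h.w_symm hg ky
  have k3 := h.w_symm mc (h.wr ka.m ky.m mc)
  have e3 := h.cmE ky.m k2.q k3.q (h.sq hg) (h.sq mc)
  have a1 := mul_cm' (h.sq hg) a
  have a2 := mul_cm' (h.sq m1) y
  have a3 := mul_cm' (h.Esq hg e1) a
  have c1 := (h.ri.ln_r hg ka.m m1).c
  have c2 := h.EE kb.m hg kb.c.symm (h.mE' kb.m) e1
  have c3 := h.Ec kb.m e2 kb.m (.refl b)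
  have n3 : cm g (cm a y) = cm (cm g a) y * cm (cm (cm g a) y) a := by
    have : cm a y * g * cm a y = g * (cm (cm g a) y * cm (cm (cm g a) y) a) := by
      nth_rw 2 [← h.ri.cm_comm ka.m ky.m mc]
      have g2 := h.sq hg; have b2 := h.sq m1
      generalize cm g a = b1 at *
      generalize cm b1 y = g1 at *
      calc _ = a * (y * (a * (y * g * y) * a) * y) * a := by simp only [cm, mul_assoc]
        _ = a * (y * g * y * (y * b1 * y)) * a := by
          rw [cj2 ky.c.symm (h.sq ky.m), ← a1]; simp only [mul_assoc, mm (h.sq ky.m), ← ky.c.left_comm]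
        _ = a * g * a * (a * b1 * a) * (a * g1 * a) := by
          rw [cj2 ky.c.symm (h.sq ky.m), ← a2]; simp only [mul_assoc, mm (h.sq ka.m)]
        _ = _ := by rw [← a1, ← a3, cj2 c1 (h.sq ka.m)]; simp only [mul_assoc, mm b2]
    rw [← mm (h.sq hg) (cm g _), mul_cm' (h.sq hg), this, mm (h.sq hg)]
  have c4 : Commute b (cm g (cm a y)) := n3 ▸ c2.mul_right c3
  by_cases q : Commute g (cm a y)
  · rw [cm_eq_one (h.sq hg) (h.sq mc) q, eq_comm, mul_eq_one_iff_eq_inv, inv_eq (h.Esq kb.m e2)] at n3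
    have m2 := h.ww k1 ky fun q => n1 q.symm
    exact h.EnD hg kb.m (h.nsm hg kb.m ky.m ky.c fun q => n' q.symm) e1 (n3 ▸ e2) m2
  · have m2 := h.ww k2 k3 q
    exact n' (h.sm_comm (h.Esm ky.m e3 m2) m2 ky.m kb.m c4.symm)

theorem pt_of (he : e ∈ D) (hb : b ∈ D) (hg : g ∈ D) (hx : x ∈ D) (e1 : cm g e = b) (e2 : cm b x = g) :
    Pt D e b g x :=
  ⟨h.s3' he hg hb hx ((h.ri.cm_comm hg he (me e1 hb)).trans e1) ((h.ri.cm_comm hb hx (me e2 hg)).trans e2),
    hb, hg, e1, e2⟩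

theorem ex_pt (he : e ∈ D) (hg : g ∈ D) (k : cm g e ∈ D) : ∃ x, Pt D e (cm g e) g x :=
  let ⟨x, q, s⟩ := h.k2' he hg k
  ⟨x, s, k, hg, rfl, (h.ri.cm_comm s.r k (me q hg)).trans q⟩

section
variable (P : Pt D e b g x)
include P
theorem p_eb : Ln D e b := P.e1 ▸ h.ri.ln_r P.hg P.l (me P.e1 P.hb)
theorem p_gb : Ln D g b := P.e1 ▸ h.ri.ln_l P.hg P.l (me P.e1 P.hb)
theorem p_be : W D b e := h.w_ln (h.p_eb P).symm
theorem p_bg : W D b g := h.w_ln (h.p_gb P).symm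
theorem p_ge : ¬ Commute g e := h.ri.not_comm P.hg P.l (me P.e1 P.hb)
theorem p_nbg : ¬ Sm D b g := h.nsm P.hb P.hg P.l (h.p_be P).c (h.p_ge P)
theorem p_nbe : ¬ Sm D b e := h.nsm P.hb P.l P.hg (h.p_bg P).c fun q => h.p_ge P q.symm
theorem p_nb : x * e * x * b * (x * e * x) = g := P.e2 ▸ (h.p1 P.toS3 (h.p_eb P) (me P.e2 P.hg)).2

theorem p_nz (hz : z ∈ E D b) : cm z x ∈ E D g ∧ cm (cm z x) e ∈ E D b ∧
    x * e * x * z * (x * e * x) = z * cm z x * cm (cm z x) e ∧ z * cm (cm z x) e ∈ E D g := by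
  have z2 := h.Esq P.hb hz
  have e1 := h.cmE P.hg (h.E_le P.hg (h.p_bg P.symm) hz) (h.p_be P.symm).q z2 (h.sq P.r)
  have e2 := h.cmE P.hb (h.E_le P.hb (h.p_bg P) e1) (h.p_be P).q (h.Esq P.hg e1) (h.sq P.l)
  have a1 := mul_cm' z2 x
  have a2 := mul_cm' (h.Esq P.hg e1) e
  have c1 := h.Ec P.hb hz P.l (h.p_be P).c
  have c2 := h.EE P.hb P.hg (h.p_bg P).c hz e1
  have e3 := h.E_cj P.hb hz (h.n_sq P.toS3)
  rw [h.p_nb P] at e3
  have a3 : x * e * x * z * (x * e * x) = z * cm z x * cm (cm z x) e := by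
    rw [← P.b, mul_assoc z, a2]
    calc _ = e * (x * (e * z * e) * x) * e := by simp only [mul_assoc]
      _ = _ := by rw [cj2 c1 (h.sq P.l), ← a1, ← mul_assoc, c1.eq]; simp only [mul_assoc]
  refine ⟨e1, e2, a3, ?_⟩
  rw [a3, c2.eq, mul_assoc] at e3
  exact (mul_mem_cancel_left e1).1 e3
end

theorem ker (hp : p ∈ D) (hs : s ∈ D) (k : cm p s ∈ D) (hz : z ∈ E D p) (c : cm z s ∈ E D p) :
    z ∈ E D (cm p s) := by
  obtain ⟨x, P⟩ := h.ex_pt hs hp k
  have := (h.p_nz P.symm hz).2.2.2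
  rwa [cm_eq_one (h.Esq hp c) (h.sq P.r) (h.Ec hp c P.r (h.p_be P.symm).c).symm, mul_one] at this

theorem ker' (hp : p ∈ D) (hs : s ∈ D) (k : cm p s ∈ D) (hz : z ∈ E D p) (c : Commute z s) :
    z ∈ E D (cm p s) :=
  h.ker hp hs k hz (by rw [cm_eq_one (h.Esq hp hz) (h.sq hs) c]; exact one_mem _)

theorem sur (hp : p ∈ D) (hs : s ∈ D) (k : cm p s ∈ D) (hz : z ∈ D) (q : Sm D z (cm p s)) :
    ∃ p' ∈ D, Sm D p' p ∧ z * cm p' s ∈ E D p := by
  obtain ⟨x, P⟩ := h.ex_pt hs hp k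
  obtain ⟨e1, -, -, e2⟩ := h.p_nz P (h.mE k hz q)
  have m := h.sm_sp q.symm k hz P.r (me P.e2 hp)
  exact ⟨_, m, h.Esm hp e1 m, e2⟩

theorem swap' (ha : a ∈ D) (hx : x ∈ D) (o : Op a x) : ∃ w ∈ D, w ∈ closure {a, x} ∧ w * a * w = x ∧
    ∀ z, z * z = 1 → z * a * z = x → Commute z w := by
  obtain ⟨k, hk⟩ := o.odd
  have a2 := h.sq ha
  have r1 : (a * x) ^ (k + 1) * (a * x) ^ k = 1 := by
    rw [← pow_add, show k + 1 + k = 2 * k + 1 by ring, ← hk, pow_orderOf_eq_one]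
  refine ⟨_, h.ri.mul_pow_mem ha hx (k + 1), mul_mem (subset_closure (by simp))
    (CF.Invol.pow_mem_closure_pair _ _ _), ?_, fun z z2 e => comm_of_cj z2 ?_⟩
  · calc _ = a * ((a * x) ^ (k + 1) * (a * x) ^ (k + 1)) := by simp [mul_assoc, mm a2]
      _ = _ := by nth_rw 2 [pow_succ _ k]; rw [← mul_assoc (_ ^ _), r1, one_mul, mm a2]
  · have e' : z * x * z = a := by rw [← e]; simp only [mul_assoc, mm z2, z2, mul_one]
    have e2 : z * (a * x) * z⁻¹ = (a * x)⁻¹ := by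
      rw [mul_inv_rev, inv_eq a2, h.ri.inv hx, inv_eq z2]
      calc _ = z * a * z * (z * x * z) := by simp only [mul_assoc, mm z2]
        _ = _ := by rw [e, e']
    calc _ = z * a * z * (z * (a * x) ^ (k + 1) * z⁻¹) := by simp only [mul_assoc, mm z2, inv_eq z2]
      _ = a * (a * x * ((a * x) ^ (k + 1))⁻¹) := by rw [e, ← conj_pow, e2, inv_pow, ← mul_assoc, mm a2]
      _ = _ := by rw [← eq_inv_of_mul_eq_one_right r1, ← pow_succ']

theorem nsp (hw : w ∈ D) (hb : b ∈ D) : cm (w * b * w) b ∉ D := fun k => by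
  have e : cm (w * b * w) b = cm w b * cm w b := by simp only [cm, mul_assoc]
  rcases h.tri hw hb with c | o | c
  · exact h.ne k (by rw [e, cm_eq_one (h.sq hw) (h.sq hb) c, one_mul])
  · refine o.not_pow (n := 3) (h.sq hb) ?_
    rw [← h.sq k, e]; simp only [cm, pow_succ, pow_zero, one_mul, mul_assoc]; norm_num [pow_succ, mul_assoc]
  · exact h.ne k (by rw [e, h.sq c])

end NT
end CF.Rt2
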