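/-
Root involutions: the elements of `E(d)` outside `D`.
-/
import Cfsg.Agent.RI2.E
set_option autoImplicit false
set_option linter.unusedSectionVars false

namespace CF.Rt2
open Subgroup Cfsg CF.BG CF.Rt
open scoped commutatorElement

variable {G : Type*} [Group G] [Finite G] {D : Set G}
variable {a b c d d' e f g i j k m n p s t u v w x y z : G}

/-- a non-degenerate class in a group with trivial centre -/
structure NZ (D : Set G) : Prop extends NT D where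
  zc : ∀ {z}, (∀ d ∈ D, Commute d z) → z = 1

/-- elements of `E(e)` multiplying the class of `e` into itself -/
structure K (D : Set G) (e k : G) : Prop where
  m : k ∈ E D e
  k : ∀ f ∈ D, Sm D f e → f * k ∈ D

namespace NT
variable (h : NT D)
include h

theorem K_one : K D e 1 := ⟨one_mem _, fun _ hf _ => by rwa [mul_one]⟩
theorem K_sm (he : e ∈ D) (q : K D e k) (hf : f ∈ D) (s : Sm D f e) : Sm D (f * k) e :=
  h.Esm he (mul_mem (h.mE he hf s) q.m) (q.k f hf s)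
theorem K_mul (he : e ∈ D) (q : K D e k) (q' : K D e j) : K D e (k * j) :=
  ⟨mul_mem q.m q'.m, fun f hf s => mul_assoc f k j ▸ q'.k _ (q.k f hf s) (h.K_sm he q hf s)⟩
theorem K_nD (he : e ∈ D) (q : K D e k) : k ∉ D := fun hk =>
  h.ne (q.k k hk (h.Esm he q.m hk)) (h.sq hk)
theorem K_eq (s : Sm D a b) (ha : a ∈ D) (hb : b ∈ D) (q : K D a k) : K D b k :=
  ⟨h.E_eq s ha hb ▸ q.m, fun f hf r => q.k f hf (r.trans s.symm)⟩
theorem K_cj (he : e ∈ D) (q : K D e k) (g2 : g * g = 1) : K D (g * e * g) (g * k * g) :=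
  ⟨h.E_cj he q.m g2, fun f hf s => by
    have := h.cn2 g2 (q.k _ (h.cn2 g2 hf) (by simpa only [mul_assoc, mm g2, g2, mul_one] using h.sc2 s g2))
    simpa only [mul_assoc, mm g2] using this⟩
theorem K_sq (he : e ∈ D) (q : K D e k) : k * k = 1 := h.Esq he q.m

theorem fx_of (hx : x ∈ D) (k2 : k * k = 1) (q : cm x k ∈ E D x) : Sm D (k * x * k) x :=
  h.Esm hx (mul_cm' (h.sq hx) k ▸ mul_mem (h.mE' hx) q) (h.cn2 k2 hx)
theorem of_fx (hx : x ∈ D) (k2 : k * k = 1) (q : Sm D (k * x * k) x) : cm x k ∈ E D x := by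
  have := mul_mem (h.mE' hx) (h.mE hx (h.cn2 k2 hx) q)
  simpa only [cm, mul_assoc] using this
theorem fx_sm (k2 : k * k = 1) (q : Sm D (k * x * k) x) (s : Sm D y x) : Sm D (k * y * k) y :=
  (h.sc2 s k2).trans (q.trans s.symm)

theorem l1 (P : Pt D e b g x) (hf : f ∈ D) (s : Sm D f e) (q : b * cm g f ∈ E D g) :
    Sm D (e * f * x * (e * f)) x := by
  have wf := h.w_r (h.p_be P) s.symm P.hb hf
  have nf : ¬ Commute g f := fun c => h.p_ge P (h.sm_comm s hf P.l P.hg c.symm).symm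
  have m := h.ww (h.p_bg P) wf nf
  have e1 := h.mE P.hb m (h.w_sm' P.hb (h.p_bg P) wf nf)
  have P' := h.pt_of hf m P.hg P.r rfl (by
    rw [← mm (h.sq P.hb) (cm g f), cm_l (h.EE' P.hb (h.mE' P.hb) (mul_mem (h.mE' P.hb) e1)) (h.Ec P.hg q P.r (h.p_be P.symm).c).symm
      (h.Esq P.hg q), P.e2])
  have := h.sc2 (h.sc2 s (h.sq P.r)).symm (h.sq hf)
  rw [← P.b, ← P'.b] at this
  nth_rw 1 [(h.sm_c s.symm P.l hf).eq]
  simpa only [mul_assoc, mm (h.sq hf), h.sq hf, mul_one] using this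

theorem l2 (P : Pt D e b g x) (hf : f ∈ D) (s : Sm D f e) :
    ∃ b' g' y, Sm D b' b ∧ Sm D g' g ∧ Sm D y x ∧ Pt D f b' g' y := by
  obtain ⟨w, hw, -, e1⟩ := h.ri.swap hf P.r (h.sm_op s.symm P.r P.o)
  have w2 := h.sq hw
  have k := h.s3_cj P.toS3.symm w
  have s1 := h.sc2 s w2
  rw [h.ri.inv hw, ← e1] at k
  simp only [← mul_assoc, w2, one_mul, mm' w2] at k
  rw [e1] at s1
  have wf := h.w_r (h.p_be P) s.symm P.hb hf
  have nf : ¬ Commute g f := fun c => h.p_ge P (h.sm_comm s hf P.l P.hg c.symm).symm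
  have m := h.ww (h.p_bg P) wf nf
  have s2 := h.w_sm' P.hb (h.p_bg P) wf nf
  have l := h.ri.ln_r P.hg hf m
  have w1 := h.w_r (h.p_bg P.symm) s2.symm P.hg m
  have w3 := h.w_r (h.p_be P.symm) s1 P.hg k.r
  have n1 : ¬ Commute (cm g f) (w * e * w) := fun c => l.not_comm h.ri k.r k.o c.symm
  have m1 := h.ww w1 w3 n1
  exact ⟨_, _, _, s2, h.w_sm' P.hg w1 w3 n1, s1.symm, k, m, m1, (h.p1 k l m1).1, rfl⟩

end NT

namespace NZ
variable (h : NZ D)
include h

theorem gen1 (hd : d ∈ D) (hx : x ∈ D) (o : Op d x) (c : ∀ y, Ln D d y → Commute y z) (c' : Commute x z) :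
    z = 1 :=
  h.zc fun _ he => mem_centralizer_singleton_iff.1 (h.gen h.ec hd hx o (H := centralizer {z})
    (mem_centralizer_singleton_iff.2 c') (fun y l => mem_centralizer_singleton_iff.2 (c y l)) he)

theorem E_op (hd : d ∈ D) (hx : x ∈ D) (o : Op d x) (k : z ∈ E D d) (c : Commute x z) : z = 1 :=
  h.gen1 hd hx o (fun _ l => h.Ec hd k l.r l.c) c

theorem l3 (P : S3 D e x) (hk : k ∈ E D e) (q : Sm D (k * x * k) x) :
    cm x k = x * e * x * k * (x * e * x) ∧ e * k ∈ D := by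
  have k2 := h.Esq P.l hk
  have n2 := h.n_sq P
  have e2 := h.sq P.l
  have e1 := h.of_fx P.r k2 q
  have e3 := h.E_cj P.l hk n2
  have e4 := h.E_cj P.r e1 n2
  rw [h.n_l P] at e3
  rw [← cm_cj n2, h.n_r P] at e4
  have c1 := h.Ec P.l hk P.l (.refl e)
  have l2 := h.Esq P.r e1
  have a1 : x * k * x = k * cm x k := by rw [← cm_swap (h.sq P.r) k2 l2, mul_cm' k2]
  have c2 : Commute k (cm x k) := comm_of_sq k2 l2 (by rw [cm, ← a1]; simp [mul_assoc, mm (h.sq P.r), mm k2, h.sq P.r])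
  have a2 : e * (x * e * x * k * (x * e * x)) * e = k * cm x k := by
    rw [← P.b, ← a1]; simp only [mul_assoc, mm e2, e2, mul_one, ← c1.left_comm]
  have k3 := h.Esq P.r e3
  have l3 := h.Esq P.l e4
  have m := h.cn2 k3 P.l
  rw [← mul_cm' k3, cm_swap e2 k3 l3, c2.eq] at a2
  rw [← mul_cm' e2] at m
  generalize x * e * x * k * (x * e * x) = k' at *
  generalize cm e k' = l' at *
  generalize cm x k = l at *
  have a3 : l * k' = k * l' := by
    rw [← mm l2 k, ← a2]; simp only [mul_assoc, l3, mul_one]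
  have a4 := h.E_op P.l P.r P.o (a3 ▸ mul_mem hk e4) (h.Ec P.r (mul_mem e1 e3) P.r (.refl x))
  refine ⟨by rw [← mm' k3 l, a4, one_mul], ?_⟩
  rwa [← mm' l3 k, ← a3, a4, one_mul]

theorem l3' (P : Pt D e b g x) (hk : k ∈ E D e) (q : Sm D (k * x * k) x) : K D e k :=
  ⟨hk, fun f hf s => by
    obtain ⟨_, _, y, -, -, s', P'⟩ := h.l2 P hf s
    exact (h.l3 P'.toS3 (h.E_eq s hf P.l ▸ hk) (h.fx_sm (h.Esq P.l hk) q s')).2⟩

theorem l4a (P : Pt D e b g x) (hz : z ∈ E D e) (n : cm g z ∉ E D g) :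
    ∃ f ∈ D, Sm D f e ∧ f * z ∈ E D b := by
  have hb := P.hb; have hg := P.hg; have hx := P.r; have he := P.l
  have z2 := h.Esq he hz
  have g2 := h.sq hg; have x2 := h.sq hx
  have wg := h.p_bg P; have we := h.p_be P; have wb := h.p_bg P.symm; have wx := h.p_be P.symm
  have zQ := h.E_le hb we hz
  have eβ := h.cmE hb wg.q zQ g2 z2
  have a1 := mul_cm' g2 z
  have mg := h.cn2 z2 hg
  have mx := h.cn2 z2 hx
  have kx : ∀ {u}, u ∈ E D b → Commute u x → u ∈ E D g := fun hu c => P.e2 ▸ h.ker' hb hx (me P.e2 hg) hu c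
  have ke : ∀ {u}, u ∈ E D g → Commute u e → u ∈ E D b := fun hu c => P.e1 ▸ h.ker' hg he (me P.e1 hb) hu c
  have cg : Commute g (z * g * z) := a1 ▸ (Commute.refl g).mul_right (h.Ec hb eβ hg wg.c)
  have n1 : ¬ Commute x (z * g * z) := fun c => n (kx eβ (by
    have := (wx.c.mul_left c.symm); rwa [← a1, mm g2] at this))
  have m1 := h.w_sp wx mg cg n1
  have w1 : W D g (z * g * z) := by
    refine h.w_l (h.wr hx mg m1) (h.Esm hg ?_ m1) m1 hg
    rw [← a1]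
    exact h.cmE hg wx.q (mul_mem (h.w_self hg).q (h.E_le hg wb eβ)) x2 (a1 ▸ h.sq mg)
  have o : Op x (z * x * z) := h.path mg (h.w_symm hg w1) wx n1 (h.w_cj wx z2) fun c => n1 (by
    simpa only [inv_eq z2, mul_assoc, mm z2, z2, mul_one] using c.conj z)
  obtain ⟨w, hw, wm, e1, cz⟩ := h.swap' hx mx o
  replace cz := cz z z2 rfl
  have w2 := h.sq hw
  have no : ¬ Op e w := fun o => n (by
    rw [h.gen1 he hw o (fun _ l => h.Ec he hz l.r l.c) cz.symm, cm, mul_one, g2]; exact one_mem _)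
  have c1 : Commute (w * z) x := comm_of_cj (sq_mul cz.symm w2 z2) (by
    nth_rw 2 [← cz.eq]
    calc _ = w * (z * x * z) * w := by simp only [mul_assoc]
      _ = _ := by rw [← e1]; simp only [mul_assoc, mm w2, w2, mul_one])
  -- the abelian group generated by the two middle classes
  let M := E D b ⊔ E D g
  have Mb : M ≤ Q D b := sup_le (h.E_le hb (h.w_self hb)) (h.E_le hb wg)
  have Mg : M ≤ Q D g := sup_le (h.E_le hg wb) (h.E_le hg (h.w_self hg))
  have Md : ∀ m ∈ M, ∃ u ∈ E D b, ∃ v ∈ E D g, u * v = m := fun m hm =>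
    (mem_sup_norm (le_norm_iff.2 fun u hu v hv => by rwa [cjc (h.EE hb hg wg.c hu hv)])).1 hm
  have M2 : ∀ m ∈ M, m * m = 1 := fun m hm => by
    obtain ⟨u, hu, v, hv, rfl⟩ := Md m hm
    exact sq_mul (h.EE hb hg wg.c hu hv) (h.Esq hb hu) (h.Esq hg hv)
  have Mx : ∀ m ∈ M, x * m * x ∈ M := fun m hm =>
    mul_cm' (M2 m hm) x ▸ mul_mem hm (mem_sup_right (h.cmE hg (Mg hm) wx.q (M2 m hm) x2))
  have Mz : ∀ m ∈ M, z * m * z ∈ M := fun m hm =>
    mul_cm' (M2 m hm) z ▸ mul_mem hm (mem_sup_left (h.cmE hb (Mb hm) zQ (M2 m hm) z2))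
  have Mw : w * g * w ∈ M := by
    have := pair_ind (P := fun v => v * g * v⁻¹ ∈ M) x2 (h.sq mx) (by simpa using mem_sup_right (h.mE' hg))
      (fun v k => by simpa only [mul_inv_rev, inv_eq x2, mul_assoc] using Mx _ k)
      (fun v k => by simpa only [mul_inv_rev, inv_eq x2, inv_eq z2, mul_assoc] using Mz _ (Mx _ (Mz _ k))) wm
    rwa [inv_eq w2] at this
  have n2 : ¬ Commute g w := fun c => n1 (by
    have := wx.c.symm.conj (z * w)
    rwa [cjc (cz.eq ▸ c1), mul_inv_rev, inv_eq z2, inv_eq w2, mul_assoc z, ← c.eq, mul_assoc z, mul_assoc g,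
      mm w2, ← mul_assoc] at this)
  have mM : cm g w ∈ M := by
    simpa only [cm, mul_assoc] using mul_mem (mem_sup_right (h.mE' hg) : g ∈ M) Mw
  have m2 := h.sp' hg hw n2 fun o => o.not_mem g2 w2 (h.w_two b) (Mb mM)
  have cb : Commute w b := by
    by_contra n3
    refine no (h.path m2 (h.w_symm hb (h.w_of_mem m2 (Mb mM))) we (fun c => n3 ?_) (h.wr hg hw m2) n3)
    obtain ⟨u, hu, v, hv, e2⟩ := Md _ mM
    have : Commute v e := by
      have := (h.Ec hb hu he we.c).symm.mul_left (e2 ▸ c).symm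
      rwa [mm (h.Esq hb hu)] at this
    exact (h.sm_comm (h.Esm hb (e2 ▸ mul_mem hu (ke hv this)) m2) m2 hb hw (h.wr hg hw m2).c).symm
  have c2 : Commute (w * z) g := P.e2 ▸ comm_cm (cb.mul_left (h.Ec he hz hb we.c.symm).symm) c1
  have e2 : cm g w = cm g z := by
    have := cj2 c2 (sq_mul cz.symm w2 z2)
    nth_rw 2 [← cz.eq] at this
    rw [← mm g2 (cm g w), mul_cm' g2, ← mm g2 (cm g z), a1]
    nth_rw 2 [← this]
    simp only [mul_assoc, mm w2, w2, mul_one]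
  have l := h.ri.ln_l hg hw m2
  rw [e2] at m2 l
  have e3 : cm e g = b := (h.ri.cm_comm hg he (me P.e1 hb)).trans P.e1
  obtain ⟨y, P'⟩ := h.ex_pt hg he (me e3 hb)
  rw [e3] at P'
  have m3 := h.sm_sp (h.Esm hb eβ m2).symm hb m2 P'.r (me P'.e2 he)
  have e4 := (h.p_nz P' eβ).1
  have fQ := h.E_le hb we e4
  refine ⟨_, m3, h.Esm he e4 m3, e3 ▸ h.ker' he hg (me e3 hb) (mul_mem e4 hz) (comm_of_sq g2
    (h.Esq he (mul_mem e4 hz)) ?_).symm⟩
  rw [h.br hb fQ zQ wg.q (h.EE' he e4 hz) (h.sq m3) z2 g2, h.cms hb fQ wg.q (h.sq m3) g2,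
    (h.p1 P'.toS3 l m3).1, h.sq m2]

theorem Kfx (he : e ∈ D) (hg : g ∈ D) (m : cm g e ∈ D) (q : K D e k) : cm g k ∈ E D g := by
  by_contra n
  obtain ⟨x, P⟩ := h.ex_pt he hg m
  obtain ⟨f, hf, s, r⟩ := h.l4a P q.m n
  exact h.EnD m he (h.p_nbe P) r (mul_mem (h.mE he hf s) q.m) (q.k f hf s)

theorem l1' (P : Pt D e b g x) (hf : f ∈ D) (s : Sm D f e) (q : cm g (e * f) ∈ E D g) : K D e (e * f) := by
  have we := h.p_be P
  refine h.l3' P (mul_mem (h.mE' P.l) (h.mE P.l hf s)) (h.l1 P hf s ?_)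
  rwa [h.br P.hb we.q (h.w_r we s.symm P.hb hf).q (h.p_bg P).q (h.sm_c s.symm P.l hf) (h.sq P.l) (h.sq hf)
    (h.sq P.hg), P.e1] at q

theorem l4 (P : Pt D e b g x) (hf : f ∈ D) (s : Sm D f e) (n : cm g (e * f) ∉ E D g) : e * f ∈ D := by
  have hb := P.hb; have hg := P.hg; have hx := P.r; have he := P.l
  have wg := h.p_bg P; have we := h.p_be P; have wb := h.p_bg P.symm; have wx := h.p_be P.symm
  have ef := mul_mem (h.mE' he) (h.mE he hf s)
  obtain ⟨f1, hf1, s1, z1⟩ := h.l4a P ef n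
  have z0 := mul_mem (h.mE he hf1 s1) ef
  have e0 : e * f = f1 * (f1 * (e * f)) := (mm (h.sq hf1) _).symm
  generalize f1 * (e * f) = z at z0 z1 e0
  by_cases q : cm x z ∈ E D x
  · exact e0 ▸ (h.l3' P z0 (h.fx_of hx (h.Esq he z0) q)).k f1 hf1 s1
  exfalso
  have e3 : cm x b = g := (h.ri.cm_comm hb hx (me P.e2 hg)).trans P.e2
  obtain ⟨t, P1⟩ := h.ex_pt hb hx (me e3 hg)
  rw [e3] at P1
  obtain ⟨b1, hb1, sb, y1⟩ := h.l4a P1 z1 q
  have bE := h.mE hb hb1 sb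
  have y0 := mul_mem bE z1
  -- the images of `b1` under the reflections
  have key : ∀ {f}, f ∈ D → Sm D f e → ∃ g' ∈ D, Sm D g' g ∧ g' * (b1 * z) ∈ E D x ∧
      b1 * cm g' f ∈ E D g ∧ ∀ k, K D g k → k ∈ E D x → K D b (cm f k) := by
    intro f hf s
    obtain ⟨b', g', y, sb', sg, sy, P'⟩ := h.l2 P hf s
    have n2 := h.n_sq P'.toS3
    have m := h.cn2 n2 hb1
    have bE' := h.E_eq sb' P'.hb hb ▸ bE
    have e1 := h.E_cj P'.hb bE' n2
    rw [h.p_nb P'] at e1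
    have e2 := h.E_cj hf (h.E_eq s hf he ▸ z0) n2
    rw [h.n_l P'.toS3, h.E_eq sy P'.r hx] at e2
    have c1 : Commute (y * f * y) (b1 * z) := by
      have c2 := h.Ec hg y1 P'.r (h.w_r wx sy.symm hg P'.r).c
      exact (c2.mul_left (h.Ec hb y0 hf (h.w_r we s.symm hb hf).c)).mul_left c2
    have sg' := (h.Esm P'.hg e1 m).trans sg
    refine ⟨_, m, sg', ?_, ?_, fun k q q' => ?_⟩
    · have : y * f * y * z * (y * f * y) = y * f * y * b1 * (y * f * y) * (b1 * z) := by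
        rw [← cj2 c1 n2]; generalize y * f * y = n at *
        simp only [mul_assoc, mm n2, mm (h.sq hb1)]
      exact this ▸ e2
    · obtain ⟨a1, a2, a3, -⟩ := h.p_nz P'.symm e1
      rw [P'.b] at a3
      rw [h.E_eq sg P'.hg hg] at a2 e1
      have c3 := h.EE P'.hb hg (h.w_l wg sb'.symm hb P'.hb).c a1 a2
      have a4 : y * f * y * (y * f * y * b1 * (y * f * y)) * (y * f * y) = b1 := by
        generalize y * f * y = n at *
        simp only [mul_assoc, n2, mul_one, mm n2]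
      rw [a4] at a3
      generalize y * f * y * b1 * (y * f * y) = g' at *
      generalize cm g' f = u at *
      generalize cm u y = v at *
      rw [a3, mul_assoc, mul_assoc, ← c3.eq, mm (h.Esq P'.hb a1)]
      exact mul_mem e1 a2
    · have k2 := h.K_sq hg q
      have a1 := h.Kfx hg hf (h.sm_sp s.symm he hf hg (h.ri.cm_symm hg he (me P.e1 hb))) q
      have a2 := (h.l3 P'.toS3.symm (h.E_eq sy P'.r hx ▸ q') (h.fx_of hf k2 a1)).1
      have a3 := h.K_cj P'.hg (h.K_eq sg.symm hg P'.hg q) (h.n_sq P'.toS3.symm)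
      rw [h.p_nb P'.symm] at a3
      exact a2 ▸ h.K_eq sb' P'.hb hb a3
  obtain ⟨g1, hg1, t1, t2, t3, -⟩ := key he rfl
  obtain ⟨g2, hg2, u1, u2, u3, u4⟩ := key hf s
  have gE1 := h.mE hg hg1 t1
  have gE2 := h.mE hg hg2 u1
  have kx : g1 * g2 ∈ E D x := by
    have := mul_mem t2 u2
    rwa [(h.EE' hg gE2 y1).eq, mul_assoc, mm (h.Esq hg y1)] at this
  have ht := P1.r
  have m1 := h.sm_sp t1.symm hg hg1 ht (me P1.e2 hx)
  obtain ⟨y, P2⟩ := h.ex_pt hg1 ht (h.ri.cm_symm hg1 ht m1)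
  have kg : K D g (g1 * g2) := h.K_eq t1 hg1 hg (h.l1' P2 hg2 (u1.trans t1.symm) (by
    rw [cm_eq_one (h.sq ht) (h.Esq hx kx) (h.Ec hx kx ht (h.p_be P1.symm).c)]; exact one_mem _))
  have kb := u4 _ kg kx
  have gQ1 := h.E_le hb wg gE1
  have gQ2 := h.E_le hb wg gE2
  have wf := h.w_r we s.symm hb hf
  have wf1 := h.w_r we s1.symm hb hf1
  have m2 := h.ww (h.w_r wg t1.symm hb hg1) wf1 fun c => h.p_ge P
    (h.sm_comm s1 hf1 he hg (h.sm_comm t1 hg1 hg hf1 c).symm).symm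
  have a1 : cm g1 f1 = cm g1 e * cm g1 f := by
    rw [← h.br hb we.q wf.q gQ1 (h.sm_c s.symm he hf) (h.sq he) (h.sq hf) (h.sq hg1), e0,
      cm_r (h.EE' he (h.mE he hf1 s1) z0) (h.EQ hb z1 gQ1).symm (h.Esq he z0)]
  have a2 : cm f (g1 * g2) = cm g1 f * cm g2 f := by
    rw [h.cms hb (mul_mem gQ1 gQ2) wf.q (h.K_sq hg kg) (h.sq hf),
      h.bl hb gQ1 gQ2 wf.q (h.EE' hg gE1 gE2) (h.sq hg2) (h.sq hf)]
  have b1E := h.cmE hb gQ1 we.q (h.sq hg1) (h.sq he)
  have b2E := h.cmE hb gQ1 wf.q (h.sq hg1) (h.sq hf)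
  have b3E := h.cmE hb gQ2 wf.q (h.sq hg2) (h.sq hf)
  have m3 := kb.k _ m2 (h.Esm hb (a1 ▸ mul_mem b1E b2E) m2)
  rw [a1, a2, mul_assoc, mm (h.Esq hb b2E)] at m3
  refine h.EnD hb hg (h.p_nbg P) (mul_mem b1E b3E) ?_ m3
  have := mul_mem t3 u3
  rwa [(h.EE' hb bE b1E).eq, mul_assoc, mm (h.sq hb1)] at this

theorem dich (he : e ∈ D) (hz : z ∈ E D e) : z ∈ D ∨ K D e z := by
  refine h.E_ind (P := fun z => z ∈ D ∨ K D e z) he (.inr h.K_one) (fun f hf s z hz i => ?_) hz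
  rcases i with i | i
  · obtain ⟨g, hg, m⟩ := h.exists_sp hf
    obtain ⟨x, P⟩ := h.ex_pt hf hg (h.ri.cm_symm hf hg m)
    have s' := (h.Esm he hz i).trans s.symm
    exact (em _).symm.imp (h.l4 P i s') fun q => h.K_eq s hf he (h.l1' P i s' q)
  · exact .inl (i.k f hf s)

theorem K_of (he : e ∈ D) (hz : z ∈ E D e) (n : z ∉ D) : K D e z := (h.dich he hz).resolve_left n

theorem Kz (ha : a ∈ D) (hb : b ∈ D) (n : ¬ Sm D a b) (k : z ∈ E D a) (k' : z ∈ E D b) : K D a z :=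
  h.K_of ha k (h.EnD ha hb n k k')

theorem Kc (hp : p ∈ D) (hs : s ∈ D) (m : cm s p ∈ D) (q : K D p k) :
    K D s (cm s k) ∧ K D (cm s p) (cm s k) := by
  have a1 := h.Kfx hp hs m q
  have a2 := h.cmE m (h.wl hs hp m).q (h.E_le m (h.wr hs hp m) q.m) (h.sq hs) (h.K_sq hp q)
  have n := h.nsm m hs hp (h.wr hs hp m).c (h.ri.not_comm hs hp m)
  exact ⟨h.Kz hs m (fun r => n r.symm) a1 a2, h.Kz m hs n a2 a1⟩

theorem Kx (P : Pt D e b g x) (q : K D e k) : Sm D (k * x * k) x := by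
  have m := q.k e P.l rfl
  have s := h.K_sm P.l q P.l rfl
  have := h.l1 P m s (by
    rw [h.br P.hb (h.p_be P).q (h.E_le P.hb (h.p_be P) q.m) (h.p_bg P).q (h.EE' P.l (h.mE' P.l) q.m)
      (h.sq P.l) (h.K_sq P.l q) (h.sq P.hg), P.e1, mm (h.sq P.hb)]
    exact h.Kfx P.l P.hg (me P.e1 P.hb) q)
  rwa [mm (h.sq P.l)] at this

end NZ
end CF.Rt2
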