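/-
Root involutions: near and far opposite pairs.
-/
import Cfsg.Agent.RI2.F
set_option autoImplicit false
set_option linter.unusedSectionVars false

namespace CF.Rt2
open Subgroup Cfsg CF.BG CF.Rt
open scoped commutatorElement

variable {G : Type*} [Group G] [Finite G] {D : Set G}
variable {a b c d d' e f g i j k m n p p' r s t u v w x y z : G}

/-- all neighbours of `m` are opposite to `x` -/
def Far (D : Set G) (m x : G) : Prop := ∀ w, W D m w → Op w x

/-- commuting members are neighbours -/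
def R2 (D : Set G) : Prop := ∀ ⦃d w : G⦄, d ∈ D → w ∈ D → Commute d w → W D d w

/-- a far member next to a near member -/
structure Cf (D : Set G) (x b e m : G) : Prop where
  hx : x ∈ D
  hb : b ∈ D
  o : Op b x
  we : W D b e
  no : ¬ Op e x
  wm : W D b m
  far : Far D m x

theorem cop {N : Subgroup G} (o : Odd (orderOf r)) (n : ∀ v ∈ N, r * v * r⁻¹ ∈ N)
    (q : i * (r * i * r⁻¹) ∈ N) : ∃ v ∈ N, i * v = (i * r) ^ orderOf r := by
  obtain ⟨l, hl⟩ := o
  have key : ∀ l : ℕ, ((i * r) ^ 2) ^ l * (r ^ (2 * l))⁻¹ ∈ N := fun l => by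
    induction l with
    | zero => simp
    | succ l ih =>
      have := mul_mem q (n _ (n _ ih))
      rwa [show i * (r * i * r⁻¹) * (r * (r * (((i * r) ^ 2) ^ l * (r ^ (2 * l))⁻¹) * r⁻¹) * r⁻¹) =
        (i * r) ^ 2 * ((i * r) ^ 2) ^ l * (r ^ 2 * r ^ (2 * l))⁻¹ by rw [pow_two, pow_two]; group,
        ← pow_succ', ← pow_add, add_comm 2, ← mul_add_one] at this
  refine ⟨_, n _ (key l), ?_⟩
  have := pow_orderOf_eq_one r
  rw [hl, pow_succ', mul_eq_one_iff_inv_eq] at this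
  rw [← this, hl, pow_succ' (i * r) (2 * l), pow_mul]; group

namespace NT
variable (h : NT D)
include h

theorem nc_op (hb : b ∈ D) (k : W D b w) (hx : x ∈ D) (o : Op b x) : ¬ Commute w x := fun c =>
  (h.w_symm hb k).n x hx c o

theorem far_symm (hm : m ∈ D) (hx : x ∈ D) (f : Far D m x) : Far D x m := fun v k => by
  obtain ⟨w, hw, -, e⟩ := h.ri.swap hx hm (f m (h.w_self hm)).symm
  have := (f _ (e ▸ h.w_cj k (h.sq hw))).conj w
  rw [h.ri.inv hw, e] at this
  simpa only [mul_assoc, mm (h.sq hw), h.sq hw, mul_one] using this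

theorem wE (hd : d ∈ D) (ka : W D d a) (kb : W D d b) (hu : u ∈ E D a) (hv : v ∈ E D b) (m : u * v ∈ D) :
    W D d (u * v) := h.w_of_mem m (mul_mem (h.E_le hd ka hu) (h.E_le hd kb hv))

theorem cf_symm (C : Cf D x b e m) : ∃ m', Cf D b x (cm e x) m' := by
  have q := h.sp' C.we.m C.hx (h.nc_op C.hb C.we C.hx C.o) C.no
  obtain ⟨w, hw, -, e1⟩ := h.ri.swap C.hb C.hx C.o
  have w2 := h.sq hw
  refine ⟨_, C.hb, C.hx, C.o.symm, h.w_symm q (h.wr C.we.m C.hx q), fun o => ?_, e1 ▸ h.w_cj C.wm w2,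
    fun v k => ?_⟩
  · exact (h.w_symm C.hb C.we).n _ q (h.wl C.we.m C.hx q).c.symm o.symm
  · have := (C.far _ (by simpa only [mul_assoc, mm w2, w2, mul_one] using h.w_cj k w2)).conj w
    rw [h.ri.inv hw, ← e1] at this
    simpa only [mul_assoc, mm w2, w2, mul_one] using this

end NT

namespace NZ
variable (h : NZ D)
include h

/-- a point on a line commuting with a given point -/
theorem ap (hc : c ∈ D) (hp : p ∈ D) (k : W D p p') (n : ¬ Sm D p' p) (ks : W D c s) (kp : W D c p)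
    (kp' : W D c p') (n1 : ¬ Commute p s) (n2 : ¬ Commute p' s) :
    ∃ u ∈ D, Sm D u p ∧ p' * u ∈ D ∧ Commute (p' * u) s := by
  have hs := ks.m; have hp' := k.m
  have m1 := h.ww kp ks n1
  have s1 := h.w_sm' hc kp ks n1
  have m2 := h.ww kp' ks n2
  obtain ⟨p0, hp0, t0, z0⟩ := h.sur hp hs m1 m2 ((h.w_sm' hc kp' ks n2).trans s1.symm)
  obtain ⟨v, l, m3, s3⟩ := h.w_ex hp k n
  obtain ⟨v', hv', t1, z1⟩ := h.sur l.r hp' m3 hp0 (t0.trans s3.symm)
  have w1 := h.w_r (h.w_ln l) t1.symm hp hv'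
  have n3 : ¬ Commute v' p' := fun c => h.ri.not_comm l.r hp' m3 (h.sm_comm t1 hv' l.r hp' c)
  have m4 := h.ww w1 k n3
  have s4 := h.w_sm' hp w1 k n3
  have pE := h.mE hp hp0 t0
  have uE := h.mE hp m4 s4
  have m5 : p' * cm v' p' ∈ D := (h.ri.ln_r hv' hp' m4).m
  have kk : K D p (p0 * cm v' p') := h.Kz hp l.r (h.nsm hp l.r hp' k.c (h.ri.not_comm l.r hp' m3))
    (mul_mem pE uE) z1
  have a1 := h.K_eq ((h.ri.cm_comm hp hs m1) ▸ s1) (h.ri.cm_symm hp hs m1) hc
    (h.Kc hp hs (h.ri.cm_symm hp hs m1) kk).2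
  have pQ := h.E_le hc kp
  have e1 := h.cmE hc kp'.q ks.q (h.sq hp') (h.sq hs)
  have e2 := h.cmE hc (pQ pE) ks.q (h.sq hp0) (h.sq hs)
  have a2 := h.K_mul hc (h.Kz hc hp (h.nsm hc hp hs ks.c n1) (mul_mem e1 e2) z0) a1
  rw [h.cms hc (pQ kk.m) ks.q (h.K_sq hp kk) (h.sq hs), h.bl hc (pQ pE) (pQ uE) ks.q (h.EE' hp pE uE)
    (h.sq m4) (h.sq hs), mul_assoc, mm (h.Esq hc e2), ← h.bl hc kp'.q (pQ uE) ks.q
    (h.Ec hp uE hp' k.c) (h.sq m4) (h.sq hs)] at a2
  refine ⟨_, m4, s4, m5, by_contra fun q => h.K_nD hc a2 (h.ww ?_ ks q)⟩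
  exact h.w_of_mem m5 (mul_mem kp'.q (pQ uE))

section
variable (C : Cf D x b e m)
include C

theorem f1 (hc : c ∈ D) (cb : Commute b c) : ¬ Commute c x := fun cx => by
  have hm := C.wm.m
  have key : ∀ s ∈ D, W D m (cm s c) → False := fun s hs k =>
    (h.ri.ln_r hs hc k.m).symm.not_op h.ri C.hx cx.symm (C.far _ k)
  by_cases q : Commute m c
  · refine h.ne hc (h.gen1 hm C.hx (C.far m (h.w_self hm)) (fun s l => by_contra fun n => ?_) cx.symm)
    exact key s l.r (h.w_cm (h.w_ln l) hc q (h.w_sp (h.w_ln l) hc q n))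
  · have k := h.w_sp C.wm hc cb q
    exact key m hm (h.w_symm k (h.wl hm hc k))

theorem f0 (k : W D b u) (n : ¬ Op u x) : cm u x ∈ D ∧ ¬ Commute m u := by
  have q := h.sp' k.m C.hx (h.nc_op C.hb k C.hx C.o) n
  exact ⟨q, fun c => (h.w_symm q (h.wl k.m C.hx q)).n m C.wm.m c.symm
    (h.far_symm C.wm.m C.hx C.far _ (h.w_symm q (h.wr k.m C.hx q)))⟩

theorem f2 (k : W D b u) (n : ¬ Op u x) (c : Commute e u) : Sm D u e := by
  have he := C.we.m; have hu := k.m; have hx := C.hx; have hb := C.hb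
  obtain ⟨q, n1⟩ := h.f0 C k n
  obtain ⟨q', n2⟩ := h.f0 C C.we C.no
  have wu := h.w_symm q (h.wl hu hx q)
  have wx := h.w_symm q (h.wr hu hx q)
  have nb : ∀ {v}, W D x v → ¬ Commute b v := fun k c => h.nc_op hx k hb C.o.symm c.symm
  have bu := h.w_symm hb k
  by_cases c1 : Commute e (cm u x)
  · by_contra ns
    have m1 := h.ww bu wu (nb wx)
    have w1 := h.w_r (h.w_cm (h.w_symm hb C.we) q c1 m1) (h.w_sm' hu bu wu (nb wx)) he hu
    obtain ⟨v, hv, s, m2, c2⟩ := h.ap hb he w1 ns C.wm C.we k (fun c => n2 c.symm) fun c => n1 c.symm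
    refine (h.f0 C (h.wE hb k C.we (h.mE' hu) (h.mE he hv s) m2) ?_).2 c2.symm
    exact fun o => (h.ri.ln_r hu hx q).not_op h.ri m2 (wu.c.mul_left (h.sm_comm s.symm he hv q c1)) o.symm
  · have m1 := h.sp' he q c1 fun o => wu.n e he c.symm o.symm
    have we := h.w_symm q' (h.wl he hx q')
    have wx' := h.w_symm q' (h.wr he hx q')
    have c2 : Commute (cm e x) (cm u x) := by
      by_contra n3
      exact wu.n e he c.symm (h.path hx (h.wr he hx q' |> h.w_symm q') (h.wl he hx q')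
        (h.nc_op hb C.we hx C.o) wx fun c => n3 c.symm).symm
    refine (h.f1 C m1 (comm_of_cj (h.sq hb) ?_) (comm_of_cj (h.sq hx) ?_).symm).elim
    · have m2 := h.ww wu bu fun c => nb wx c.symm
      have e1 := h.mE hu m2 (h.w_sm' hu wu bu fun c => nb wx c.symm)
      rw [← cm_cj (h.sq hb), cj2 C.we.c (h.sq hb), ← mul_cm' (h.sq q),
        cm_r (h.EQ hu e1 wu.q) (h.Ec hu e1 he c.symm).symm (h.sq m2)]
    · rw [← cm_cj (h.sq hx), cj2 wx.c (h.sq hx), ← mul_cm' (h.sq he), cm_l we.c c2 (h.sq q')]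

theorem f3 (hr : r ∈ D) (c : Commute b r) (n : ¬ Op r x) : W D b r := by
  have hx := C.hx; have hb := C.hb
  have q := h.sp' hr hx (h.f1 C hr c) n
  have w1 := h.wl hr hx q
  have w2 := h.wr hr hx q
  have n1 : ¬ Commute (cm r x) b := h.nc_op hx (h.w_symm q w2) hb C.o.symm
  have m1 := h.w_sp (h.w_symm q w1) hb c.symm n1
  have w3 := h.w_cm (h.w_symm q w1) hb c.symm m1
  have wb := h.w_symm m1 (h.wr q hb m1)
  by_cases s : Sm D (cm (cm r x) b) r
  · exact h.w_r wb s hb hr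
  obtain ⟨v, hv, s', m2, c2⟩ := h.ap q hr w3 s w2 w1 (h.w_symm m1 (h.wl q hb m1)) (h.f1 C hr c)
    (h.nc_op hb wb hx C.o)
  exact (h.f1 C m2 (wb.c.mul_right (h.sm_comm s'.symm hr hv hb c.symm).symm) c2).elim

theorem f4 (hr : r ∈ D) (c : Commute b r) (n : ¬ W D b r) : W D e r := by
  have he := C.we.m; have hx := C.hx; have hb := C.hb
  obtain ⟨q, -⟩ := h.f0 C C.we C.no
  have wy := h.wl he hx q
  have ey := h.w_symm q wy
  have xy := h.wr he hx q
  have eb := h.w_symm hb C.we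
  have nb : ¬ Commute b (cm e x) := fun c => h.nc_op hx (h.w_symm q xy) hb C.o.symm c.symm
  have key : ∀ {u}, u ∈ D → Commute b u → ¬ Op u x → Commute e u → Sm D u e := fun hu c n c' =>
    h.f2 C (h.f3 C hu c n) n c'
  have c1 : Commute e r := by
    by_contra n1
    have m1 := h.w_sp C.we hr c n1
    have w1 := h.w_cm C.we hr c m1
    have w2 := h.w_symm m1 (h.wl he hr m1)
    have c2 := (h.wr he hr m1).c
    have k : ∀ {u}, u ∈ D → Commute b u → Commute u (cm e x) → Commute e u → ¬ Commute u r :=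
      fun hu a1 a2 a3 a4 => n1 (h.sm_comm (key hu a1 (fun o => xy.n _ hu a2.symm o.symm) a3) hu he hr a4)
    by_cases c3 : Commute (cm e r) (cm e x)
    · exact k m1 w1.c c3 w2.c c2
    obtain ⟨v, hv, s, m2, c4⟩ := h.ap he hb w1 (fun s => n (h.w_l (h.wr he hr m1) s m1 hb)) ey eb w2 nb c3
    have vE := h.mE hb hv s
    exact k m2 (w1.c.mul_right (h.Ec hb vE hb (.refl b))) c4 (w2.c.mul_right (h.Ec hb vE he C.we.c))
      (c2.mul_left (h.Ec hb vE hr c).symm)
  have o : Op r x := by_contra fun o => n (h.f3 C hr c o)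
  have n2 : ¬ Commute (cm e x) r := h.nc_op hx (h.w_symm q xy) hr o.symm
  have m1 := h.w_sp ey hr c1 n2
  have w1 := h.w_cm ey hr c1 m1
  have w2 := h.w_symm m1 (h.wl q hr m1)
  have w3 := h.wr q hr m1
  have k : ∀ {u}, W D (cm e x) u → Commute b u → Sm D u e := fun k a1 =>
    key k.m a1 (fun o => k.n x hx xy.c o) (h.w_sm' q wy k |> fun f => by_contra fun n3 =>
      nb (h.sm_comm (f n3) (h.ww wy k n3) q hb (comm_cm C.we.c a1).symm).symm)
  by_cases s : Sm D (cm (cm e x) r) e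
  · exact h.w_l w3 s m1 he
  by_cases c3 : Commute (cm (cm e x) r) b
  · exact absurd (k w2 c3.symm) s
  obtain ⟨v, hv, s', m2, c4⟩ := h.ap he q w2 (fun s => n2 (h.sm_comm s m1 q hr w3.c)) eb ey w1
    (fun c => nb c.symm) c3
  have s2 := k (h.wE q w2 (h.w_self q) (h.mE' m1) (h.mE q hv s') m2) c4.symm
  have c5 := w3.c.mul_left (h.sm_comm s2.symm he m2 hr c1)
  rw [mm (h.sq m1)] at c5
  exact absurd (h.sm_comm s' hv q hr c5) n2

theorem r2 : R2 D := fun d w hd hw c => by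
  obtain ⟨g, -, rfl⟩ := h.ri.rf_conj (h.fc _ C.hb _ hd)
  rw [show w = g * (g⁻¹ * w * g) * g⁻¹ by group] at c hw ⊢
  refine h.w_conj (by_contra fun n => ?_) g
  have hr := h.cn' g hw
  have c' := comm_conj.1 c
  obtain ⟨r', hr', c2, o⟩ : ∃ r' ∈ D, Commute b r' ∧ Op (g⁻¹ * w * g) r' := by
    by_contra q
    push Not at q
    exact n ⟨hr, c', q⟩
  have k := h.f4 C hr' c2 fun k => k.n _ hr c' o.symm
  exact (h.f4 C hr c' n).n _ hr' k.c o

end

end NZ
end CF.Rt2
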