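/-
Root involutions: the classes are subgroups.
-/
import Cfsg.Agent.RI2.G
set_option autoImplicit false
set_option linter.unusedSectionVars false

namespace CF.Rt2
open Subgroup Cfsg CF.BG CF.Rt
open scoped commutatorElement

variable {G : Type*} [Group G] [Finite G] {D : Set G}
variable {a b c d d' e f g i j k m n p p' q r s t u v w x y z : G}

/-- `K_p` acts trivially on `E(q) / K_q` -/
def FF (D : Set G) (p q : G) : Prop := ∀ k, K D p k → ∀ y ∈ D, Sm D y q → K D q (cm y k)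

/-- the subgroup `K_e` -/
def NT.KK (h : NT D) (he : e ∈ D) : Subgroup G where
  carrier := {k | K D e k}
  one_mem' := h.K_one
  mul_mem' := h.K_mul he
  inv_mem' q := by rw [inv_eq (h.K_sq he q)]; exact q

namespace NZ
variable (h : NZ D)
include h

theorem near (ha : a ∈ D) (hx : x ∈ D) (o : Op a x) (wi : W D a i) (n : ¬ Op i x) :
    ∃ a' i' j', Sm D a' a ∧ Pt D a' i' j' x := by
  have hi := wi.m
  have hj := h.sp' hi hx (h.nc_op ha wi hx o) n
  have ji := h.wl hi hx hj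
  have jx := h.wr hi hx hj
  obtain ⟨j, e0⟩ : ∃ j, cm i x = j := ⟨_, rfl⟩
  rw [e0] at hj ji jx
  have ij := h.w_symm hj ji
  have ia := h.w_symm ha wi
  have n1 : ¬ Commute a j := fun c => h.nc_op hx (h.w_symm hj jx) ha o.symm c.symm
  have m1 := h.ww ia ij n1
  obtain ⟨a', ha', s, z⟩ := h.sur ha hj m1 hi (h.w_sm' hi ia ij n1).symm
  have ia' := h.w_r ia s.symm hi ha'
  have n2 : ¬ Commute a' j := fun c => n1 (h.sm_comm s ha' ha hj c)
  have o' := h.sm_op s.symm hx o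
  have a2 := h.sq ha'; have x2 := h.sq hx; have i2 := h.sq hi; have j2 := h.sq hj
  have kk : K D i (i * cm a' j) := h.Kz hi ha (h.nsm hi ha hj ij.c n1)
    (mul_mem (h.mE' hi) (h.cmE hi ia'.q ij.q a2 j2)) z
  have xi : cm x i = j := (h.ri.cm_comm hi hx (me e0 hj)).trans e0
  let N := h.KK hi ⊔ h.KK hj
  have Nd : ∀ v ∈ N, ∃ u, K D i u ∧ ∃ w, K D j w ∧ u * w = v := fun v hv =>
    (mem_sup_norm (le_norm_iff.2 fun u hu v hv => by rwa [cjc (h.EE hi hj ij.c hu.m hv.m)])).1 hv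
  have Nx : ∀ v ∈ N, x * v * x ∈ N := fun v hv => by
    obtain ⟨u, hu, w, hw, rfl⟩ := Nd v hv
    have := (h.Kc hi hx (me xi hj) hu).2
    rw [xi, h.cms hj (h.E_le hj ji hu.m) jx.q (h.K_sq hi hu) x2] at this
    rw [← mul_assoc, mul_assoc _ w, ← (h.Ec hj hw.m hx jx.c).eq, ← mul_assoc, ← mul_cm' (h.K_sq hi hu)]
    exact mul_mem (mul_mem (mem_sup_left hu) (mem_sup_right this)) (mem_sup_right hw)
  have Na : ∀ v ∈ N, a' * v * a' ∈ N := fun v hv => by
    obtain ⟨u, hu, w, hw, rfl⟩ := Nd v hv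
    have m2 := h.ww ia' ij n2
    have := h.K_eq (h.w_sm' hi ia' ij n2) m2 hi (h.Kc hj ha' m2 hw).2
    rw [h.cms hi (h.E_le hi ij hw.m) ia'.q (h.K_sq hj hw) a2] at this
    rw [← mul_assoc, (h.Ec hi hu.m ha' ia'.c).eq, mul_assoc u, mul_assoc u, ← mul_cm' (h.K_sq hj hw)]
    exact mul_mem (mem_sup_left hu) (mul_mem (mem_sup_right hw) (mem_sup_left this))
  have Nr : ∀ v ∈ N, a' * x * v * (a' * x)⁻¹ ∈ N := fun v hv => by
    simpa only [mul_inv_rev, inv_eq a2, inv_eq x2, mul_assoc] using Na _ (Nx v hv)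
  have b1 : x * i * x = i * j := by rw [← e0, mul_cm' i2]
  have b2 : a' * j * a' = j * (i * (i * cm a' j)) := by
    rw [mm i2, h.cms hi ij.q ia'.q j2 a2, mul_cm' j2]
  have kN : i * cm a' j ∈ N := mem_sup_left kk
  have c0 := h.Ec hi kk.m hj ij.c
  generalize i * cm a' j = k at *
  have r1 : a' * x * i * (a' * x)⁻¹ = j * k := by
    calc _ = a' * (x * i * x) * a' := by simp only [mul_inv_rev, inv_eq a2, inv_eq x2, mul_assoc]
      _ = i * (a' * j * a') := by rw [b1, ← mul_assoc, ← ia'.c.eq]; simp only [mul_assoc]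
      _ = _ := by rw [b2, ij.c.left_comm, mm i2]
  have r2 : a' * x * j * (a' * x)⁻¹ = j * i * k := by
    calc _ = a' * (x * j * x) * a' := by simp only [mul_inv_rev, inv_eq a2, inv_eq x2, mul_assoc]
      _ = _ := by rw [cj2 jx.c.symm x2, b2, mul_assoc]
  have r3 : i * ((a' * x) ^ 3 * i * ((a' * x) ^ 3)⁻¹) ∈ N := by
    have := mul_mem (mul_mem kN (mul_mem kN (Nr _ kN))) (Nr _ (Nr _ kN))
    generalize a' * x = r at *
    have e1 : r ^ 3 * i * (r ^ 3)⁻¹ = r * (r * (r * i * r⁻¹) * r⁻¹) * r⁻¹ := by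
      simp only [pow_succ, pow_zero, one_mul]; group
    have e2 : ∀ u v, r * (u * v) * r⁻¹ = r * u * r⁻¹ * (r * v * r⁻¹) := fun u v => by group
    rw [e1, r1, e2 j, r2, e2 (j * i * k), e2 (j * i), e2 j, r1, r2]
    simpa only [mul_assoc, ← c0.left_comm, ← ij.c.left_comm, mm j2, mm i2] using this
  have od : Odd (orderOf ((a' * x) ^ 3)) := o'.odd.of_dvd_nat (orderOf_pow_dvd 3)
  obtain ⟨v, hv, e1⟩ := cop (N := N) od (fun v hv => by
    simpa only [pow_succ, pow_zero, one_mul, mul_inv_rev, mul_assoc] using Nr _ (Nr _ (Nr v hv))) r3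
  obtain ⟨u, hu, w, hw, rfl⟩ := Nd v hv
  have c1 : Commute (i * (u * w)) ((a' * x) ^ 3) := by
    have c2 : Commute i (i * (u * w)) :=
      (Commute.refl i).mul_right ((h.Ec hi hu.m hi (.refl i)).mul_right (h.Ec hj hw.m hi ji.c))
    have := c2.mul_left (e1 ▸ (Commute.refl _).pow_right _)
    rw [mm i2] at this
    exact this.symm
  have inv : ∀ {t m : G}, t * t = 1 → t * (a' * x) * t⁻¹ = (a' * x)⁻¹ → Commute m ((a' * x) ^ 3) →
      Commute (cm m t) ((a' * x) ^ 3) := fun {t m} t2 e c => by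
    have := (c.conj t).inv_right
    rw [← conj_pow, e, inv_pow, inv_inv, inv_eq t2] at this
    simpa only [cm, mul_assoc] using c.mul_left this
  have c2 := inv x2 (CF.Invol.right_inverts_mul a2 x2) c1
  have mi := hu.k i hi rfl
  have si := h.K_sm hi hu hi rfl
  rw [← mul_assoc, cm_l (h.Ec hj hw.m mi (h.w_r ji si.symm hj mi).c) (h.Ec hj hw.m hx jx.c).symm
    (h.K_sq hj hw)] at c2
  have w1 := h.w_r ji si.symm hj mi
  have n3 : ¬ Commute (i * u) x := fun c => h.nc_op ha wi hx o (h.sm_comm si mi hi hx c)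
  have mj := h.ww w1 jx n3
  have sj := h.w_sm' hj w1 jx n3
  have c3 := inv a2 (CF.Invol.left_inverts_mul a2 x2) c2
  have m3 := h.ww (h.w_r ij sj.symm hi mj) ia' fun c => n2 (h.sm_comm sj mj hj ha' c).symm
  have l := h.ri.ln_r mj ha' m3
  have e3 : (a' * x) ^ 3 = 1 := by_contra fun n4 => l.not_comm h.ri (h.ri.mul_pow_mem ha' hx 3)
    ⟨fun e => n4 (by simpa using e), by rwa [mm a2]⟩ (l.c.mul_left c3.symm)
  haveI : Fact (Nat.Prime 3) := ⟨Nat.prime_three⟩
  have S := h.s3_of ha' hx o' (orderOf_eq_prime e3 fun e => o'.not_pow (n := 0) x2 (by simpa using e))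
  have m4 := h.ri.sp_of l hx o' ((h.w_symm m3 (h.wl mj ha' m3)).n x hx (h.wr mi hx mj).c)
  exact ⟨a', _, _, s, S, m3, m4, (h.p1 S l m4).1, rfl⟩

theorem ff_l (s : Sm D p p') (hp : p ∈ D) (hp' : p' ∈ D) (f : FF D p q) : FF D p' q :=
  fun k r => f k (h.K_eq s.symm hp' hp r)

theorem ff_pt (P : Pt D e b g x) : FF D e x := fun k q y hy s => by
  obtain ⟨_, _, f, -, -, s', P'⟩ := h.l2 P.symm hy s
  have q' := h.K_eq s'.symm P.l P'.r q
  have := h.K_cj P'.r q' (h.n_sq P'.toS3.symm)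
  rw [h.n_l P'.toS3.symm, ← (h.l3 P'.toS3.symm q'.m (h.Kx P'.symm q')).1] at this
  exact h.K_eq s hy P.r this

theorem ff_nop (hp : p ∈ D) (hq : q ∈ D) (n : ¬ Op p q) : FF D p q := fun k r y hy s => by
  by_cases c : Commute p y
  · rw [cm_eq_one (h.sq hy) (h.K_sq hp r) (h.Ec hp r.m hy c)]; exact h.K_one
  · exact h.K_eq s hy hq (h.Kc hp hy (h.sp' hy hp (fun q => c q.symm)
      fun o => n (h.sm_op s hp o).symm) r).1

theorem ff_near (ha : a ∈ D) (hx : x ∈ D) (n : ¬ Far D a x) : FF D a x ∧ FF D x a := by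
  by_cases o : Op a x
  swap
  · exact ⟨h.ff_nop ha hx o, h.ff_nop hx ha fun q => o q.symm⟩
  simp only [Far, not_forall] at n
  obtain ⟨i, wi, n⟩ := n
  obtain ⟨a', _, _, s, P⟩ := h.near ha hx o wi n
  exact ⟨h.ff_l s P.l ha (h.ff_pt P), fun k r y hy s' =>
    h.K_eq s P.l ha (h.ff_pt P.symm k r y hy (s'.trans s.symm))⟩

theorem lk (hy : y ∈ D) (w : W D y x) (n : ¬ Sm D y x) (q : K D y k) (m : x * k ∈ D) : k ∈ E D x := by
  have hx := w.m
  obtain ⟨s, l, m1, s1⟩ := h.w_ex hx (h.w_symm hy w) n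
  obtain ⟨k1, k2⟩ := h.Kc hy l.r m1 q
  have c : Commute (x * k) s := by_contra fun c => h.K_nD l.r k1 (by
    have := h.w_sp (h.w_ln l) m ((Commute.refl x).mul_right (h.Ec hy q.m hx w.c)) fun r => c r.symm
    rwa [(h.Ec hy q.m hx w.c).eq, cm_r (h.Ec hy q.m hx w.c).symm l.c (h.sq hx)] at this)
  have := l.c.mul_left c
  rw [mm (h.sq hx)] at this
  have e := h.ker' hy l.r (h.ri.cm_symm l.r hy m1) q.m this
  rwa [h.ri.cm_comm l.r hy m1, h.E_eq s1 m1 hx] at e

theorem ff_mid (hm : m ∈ D) (hx : x ∈ D) (ka : W D m a) (kb : W D m b) (n : ¬ Commute a b)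
    (fa : FF D x a) (fb : FF D x b) : FF D x m := fun k q y hy s => by
  have ha := ka.m; have hb := kb.m
  have m1 := h.ww ka kb n
  obtain ⟨a', ha', s', z⟩ := h.sur ha hb m1 hy (s.trans (h.w_sm' hm ka kb n).symm)
  have k2 := h.K_sq hx q
  have ka' := h.w_r ka s'.symm hm ha'
  have n' : ¬ Commute a' b := fun c => n (h.sm_comm s' ha' ha hb c)
  have m2 := h.ww ka' kb n'
  have s2 := h.w_sm' hm ka' kb n'
  have kz := h.Kz hm ha (h.nsm hm ha hb kb.c n) (mul_mem (h.mE hm hy s) (h.mE hm m2 s2)) z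
  have f1 := fa k q a' ha' s'
  have f2 := fb k q b hb rfl
  have m3 := f1.k a' ha' s'
  have s3 := h.K_sm ha f1 ha' s'
  have m4 := h.sm_sp s3.symm ha m3 hb m1
  have f3 := h.K_eq ((h.w_sm' hm (h.w_r ka s3.symm hm m3) kb (h.ri.not_comm m3 hb m4))) m4 hm
    (h.Kc hb m3 m4 f2).2
  have f4 := h.K_eq (h.ri.cm_comm ha hb m1 ▸ h.w_sm' hm ka kb n) (h.ri.cm_symm ha hb m1) hm
    (h.Kc ha hb (h.ri.cm_symm ha hb m1) f1).2
  have q1 := h.E_le hm ka f1.m
  have q2 := h.E_le hm kb f2.m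
  have e1 : k * cm a' b * k = cm a' b * (cm b (cm a' k) * cm (a' * cm a' k) (cm b k)) := by
    rw [← cm_cj k2, ← mul_cm' (h.sq ha'), ← mul_cm' (h.sq hb), h.br hm kb.q q2 (mul_mem ka'.q q1)
      (h.Ec hb f2.m hb (.refl b)) (h.sq hb) (h.K_sq hb f2) (h.sq m3), h.bl hm ka'.q q1 kb.q
      (h.Ec ha f1.m ha' (h.sm_c s'.symm ha ha')) (h.K_sq ha f1) (h.sq hb),
      h.cms hm q1 kb.q (h.K_sq ha f1) (h.sq hb), mul_assoc (cm a' b)]
  have f5 := h.K_mul hm f4 f3
  have s5 := h.K_sm hm f5 m2 s2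
  rw [← e1] at s5
  have f6 := h.K_eq ((h.sc2 s2.symm k2).trans s5) (h.cn2 k2 hm) hm (h.K_cj hm kz k2)
  have := h.K_mul hm kz (h.K_mul hm f5 f6)
  have c1 := h.EE' hm (h.mE hm hy s) (h.mE hm m2 s2)
  have u2 := h.sq m2
  generalize cm b (cm a' k) * cm (a' * cm a' k) (cm b k) = v at *
  generalize cm a' b = u at *
  rwa [mul_assoc y, ← mul_assoc u, ← e1, c1.eq, show y * (k * u * k * (k * (u * y) * k)) = cm y k by
    simp only [cm, mul_assoc, mm k2, mm u2]] at this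

theorem ff_far (C : Cf D x b e m) : FF D x m := by
  have he := C.we.m; have hx := C.hx; have hb := C.hb; have hm := C.wm.m
  obtain ⟨q, -⟩ := h.f0 C C.we C.no
  obtain ⟨m', C'⟩ := h.cf_symm C
  have ye := h.wl he hx q
  have yx := h.wr he hx q
  generalize cm e x = y at *
  have ey := h.w_symm q ye
  have xy := h.w_symm q yx
  have eb := h.w_symm hb C.we
  have f' := h.far_symm hm hx C.far
  obtain ⟨w, hw, -, e1⟩ := h.ri.swap hm hx (C.far m (h.w_self hm))
  have w2 := h.sq hw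
  have e2 : w * x * w = m := by rw [← e1]; simp only [mul_assoc, mm w2, w2, mul_one]
  have e3 : ∀ t, w * (w * t * w) * w = t := fun t => by simp only [mul_assoc, mm w2, w2, mul_one]
  have mb := h.w_symm hb C.wm
  have xu := e1 ▸ h.w_cj mb w2
  have my := e2 ▸ h.w_cj xy w2
  have hu := xu.m
  have nb : ¬ Commute b y := fun c => h.nc_op hx xy hb C.o.symm c.symm
  have by' := h.ww eb ey nb
  have nf : ¬ Far D b x := fun f => C.no (f e C.we)
  by_cases c : Commute y (w * b * w)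
  swap
  · refine h.ff_mid hm hx mb my (fun r => c ?_) (h.ff_near hb hx nf).2 (h.ff_near my.m hx fun f => ?_).2
    · simpa only [inv_eq w2, e3] using r.symm.conj w
    · have k1 := h.w_cj ye w2
      have k2 := h.w_symm hb C.we
      have := f _ k1
      exact (h.w_cj C.we w2).n x hx (h.w_symm hx xu).c this
  exfalso
  have yu := h.r2 C q hu c
  have nu : ¬ Commute b (w * b * w) := fun c => h.nc_op hx xu hb C.o.symm c.symm
  have ou : Op (w * b * w) b := by_contra fun o => h.nsp hw hb (h.sp' hu hb (fun c => nu c.symm) o)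
  have n1 : ¬ Commute (w * b * w) e := fun c => eb.n _ hu c.symm ou.symm
  have n2 : ¬ Sm D (w * b * w) x := fun s => by
    have := h.sc2 s w2
    rw [e3, e2] at this
    exact C.no (C.far e (h.w_l C.we this hb hm))
  obtain ⟨v, hv, s, m1, c1⟩ := h.ap q hx xu n2 ye yx yu (fun c => h.nc_op hb C.we hx C.o c.symm) n1
  have w1 := h.wE hx xu (h.w_self hx) (h.mE' hu) (h.mE hx hv s) m1
  have s1 := h.f2 C' w1 (fun o => eb.n _ m1 c1.symm o.symm) (yu.c.mul_right (h.sm_comm s.symm hx hv q xy.c).symm)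
  have m2 := h.ww ye yu fun c => n1 c.symm
  obtain ⟨e', he', s2, z⟩ := h.sur he hu m2 m1 (s1.trans (h.w_sm' q ye yu fun c => n1 c.symm).symm)
  have ye' := h.w_r ye s2.symm q he'
  have be' := h.w_r C.we s2.symm hb he'
  have e4 := h.cmE q ye'.q yu.q (h.sq he') (h.sq hu)
  have kz := h.Kz q he (fun s => nb (h.sm_comm s.symm he q hb eb.c).symm) (mul_mem (h.mE q m1 s1) e4) z
  have e5 : v * (w * b * w * v * cm e' (w * b * w)) = e' * (w * b * w) * e' := by
    rw [← mul_cm' (h.sq hu), h.cms q yu.q ye'.q (h.sq hu) (h.sq he'),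
      (h.sm_comm s.symm hx hv hu xu.c).symm.eq]
    simp only [mul_assoc, mm (h.sq hv)]
  have m3 := h.cj hu he'
  have yv := h.w_r yx s.symm q hv
  have e6 := h.lk q yv (fun r => n1 (h.sm_comm ((r.trans s)) q hx he ye.c |> fun c =>
    absurd c.symm (h.nc_op hb C.we hx C.o))) kz (e5 ▸ m3)
  have s3 := (h.Esm hv (e5 ▸ mul_mem (h.mE' hv) e6) m3).trans s
  have o := (f' _ (h.w_l (h.w_cj (h.w_cj C.we w2) (h.sq he')) s3 m3 hx)).conj e'
  rw [h.ri.inv he'] at o
  simp only [← mul_assoc, h.sq he', one_mul, mm' (h.sq he')] at o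
  have k1 := h.w_cj yu w2
  rw [e3] at k1
  refine (h.w_cj ye w2).n _ (h.cj hm he') (h.w_of_mem (h.cj hm he') ?_).c o
  rw [← mul_cm' (h.sq hm)]
  exact mul_mem (h.w_symm hm my).q (h.E_le my.m k1 (h.cmE hb C.wm.q be'.q (h.sq hm) (h.sq he')))

theorem he (O : 𝐎 {2} (⊤ : Subgroup G) = ⊥) : HE D := by
  obtain ⟨b, hb, y, hy, q⟩ := h.sp
  obtain ⟨x, P⟩ := h.ex_pt hb hy (h.ri.cm_symm hb hy q)
  have hx := P.r
  have we := h.w_symm P.hb (h.p_be P)
  have no := (h.p_bg P.symm).n x hx (h.p_be P.symm).c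
  have ff : ∀ m, W D b m → FF D x m ∧ FF D m x := fun m k => by
    by_cases f : Far D m x
    swap
    · exact (h.ff_near k.m hx f).symm
    have f1 := h.ff_far ⟨hx, hb, P.o, we, no, k, f⟩
    refine ⟨f1, fun j r t ht s => ?_⟩
    obtain ⟨w, hw, -, e1⟩ := h.ri.swap k.m hx (f m (h.w_self k.m))
    have w2 := h.sq hw
    have e2 : w * x * w = m := by rw [← e1]; simp only [mul_assoc, mm w2, w2, mul_one]
    have := h.K_cj k.m (f1 _ (e1 ▸ h.K_cj k.m r w2) _ (h.cj ht hw) (e2 ▸ h.sc2 s w2)) w2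
    rw [e1, cm_cj w2] at this
    simpa only [mul_assoc, mm w2, w2, mul_one] using this
  let T : Set G := {k | ∃ m, W D b m ∧ K D m k}
  have cj : ∀ {t k p q}, t ∈ D → p ∈ D → q ∈ D → K D p k → K D q (cm t k) → t * k * t = k * cm t k :=
    fun ht hp hq r r' => by rw [← mul_cm' (h.K_sq hp r), cm_swap (h.sq ht) (h.K_sq hp r) (h.K_sq hq r')]
  have p1 : PiGrp {2} (closure T) := (h.w_two b).le ((closure_le _).2 fun k ⟨m, w, r⟩ => h.E_le hb w r.m)
  have p2 : PiGrp {2} (h.KK hx) := (h.w_two x).le fun k r => h.E_le hx (h.w_self hx) r.m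
  have p3 := p1.sup p2 (.inr (le_norm_iff.2 fun k r t ht => by
    have k2 := h.K_sq hx r
    rw [inv_eq k2]
    refine mem_cl_cj (S := T) k2 (fun t ⟨m, w, r'⟩ => subset_closure ⟨m, w, ?_⟩) ht
    exact h.K_eq (h.fx_of w.m k2 ((ff m w).1 k r m w.m rfl).m) (h.cn2 k2 w.m) w.m (h.K_cj w.m r' k2)))
  have nm : ∀ {t}, t ∈ D → (∀ k ∈ T, t * k * t ∈ closure T ⊔ h.KK hx) →
      (∀ k, K D x k → t * k * t ∈ closure T ⊔ h.KK hx) → t ∈ 𝐍 (closure T ⊔ h.KK hx) := fun {t} ht a1 a2 => by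
    refine mem_norm_of_cj_le fun v hv => ?_
    obtain ⟨u, hu, rfl⟩ := mem_map.1 hv
    rw [← closure_eq (h.KK hx), ← Subgroup.closure_union] at hu
    simpa [h.ri.inv ht] using mem_cl_cj (h.sq ht) (fun k hk => Or.elim hk (a1 k) (a2 k)) hu
  have N : ∀ d ∈ D, d ∈ 𝐍 (closure T ⊔ h.KK hx) := fun d hd => h.gen h.ec hb hx P.o
    (nm hx (fun k ⟨m, w, r⟩ => by
        have := (ff m w).2 k r x hx rfl
        rw [cj hx w.m hx r this]
        exact mul_mem (mem_sup_left (subset_closure ⟨m, w, r⟩)) (mem_sup_right this))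
      fun k r => mem_sup_right (by rwa [cj2 (h.Ec hx r.m hx (.refl x)) (h.sq hx)]))
    (fun s l => nm l.r (fun k ⟨m, w, r⟩ => mem_sup_left (subset_closure
        ⟨_, h.w_cc w (h.sq l.r) l.c.symm, h.K_cj w.m r (h.sq l.r)⟩)) fun k r => by
      have := (ff s (h.w_ln l)).1 k r s l.r rfl
      rw [cj l.r hx l.r r this]
      exact mul_mem (mem_sup_right r) (mem_sup_left (subset_closure ⟨s, h.w_ln l, this⟩))) hd
  have e0 := le_O (H := ⊤) ⟨le_top, h.top ▸ (closure_le _).2 N⟩ p3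
  intro d e hd he s n
  refine (h.dich hd (mul_mem (h.mE' hd) (h.mE hd he s.symm))).resolve_right fun r => n ?_
  obtain ⟨g, -, e1⟩ := h.ri.rf_conj (h.fc _ hd _ hx)
  have r' : K D x (g * (d * e) * g⁻¹) := ⟨e1 ▸ h.E_conj hd r.m g, fun f hf s' => by
    have := h.cn g (r.k _ (h.cn g⁻¹ hf) (by simpa [← e1, mul_assoc] using h.sc s' g⁻¹))
    simpa [mul_assoc] using this⟩
  have := mem_bot.1 (O ▸ e0 (mem_sup_right r'))
  rw [← mm (h.sq hd) e, show d * e = 1 by simpa using this, mul_one]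

end NZ
end CF.Rt2
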