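/-
Pairs of subgroups generating `SL₂(F)` in characteristic two.
-/
import Cfsg.Agent.Fisch.SL2
import Cfsg.Agent.Classical.SL2Class
set_option autoImplicit false
set_option linter.unusedSectionVars false

namespace CF.Rt2
open Subgroup Cfsg CF.Fisch
open scoped MatrixGroups

variable {G : Type*} [Group G] {F F' : Type*} [Field F] [Field F'] {A B X : Subgroup G} {x y : F → G}

theorem st_mul [Finite F] (h : StRel x y) (h2 : (2 : F) = 0) (t u : F) (ht : t ≠ 0) (hu : u ≠ 0) :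
    stH x y t * stH x y u = stH x y (t * u) := by
  have ng : ∀ t : F, -t = t := fun t => by linear_combination (-t) * h2
  have k : ∀ {t u : F}, t ≠ 0 → u ≠ 0 → stH x y t * stH x y u * stH x y t = stH x y (t ^ 2 * u) :=
    fun {t u} ht hu => by
      have e := h.w_neg t
      rw [ng] at e
      rw [stH.eq_1 x y u, ← mul_assoc, h.h_w ht hu, ng, mul_assoc _ _ (stW x y 1), h.h_w_one, stH, stH, ng]
      nth_rw 1 [e]; group
  have p : ∀ {t : F}, t ≠ 0 → ∀ n : ℕ, stH x y (t ^ n) = stH x y t ^ n := fun {t} ht n => by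
    induction n using Nat.twoStepInduction with
    | zero => simp [h.h_one]
    | one => simp
    | more n i _ => rw [add_comm, pow_add, ← k ht (pow_ne_zero n ht), i, ← pow_succ', ← pow_succ, add_comm 2]
  obtain ⟨g, hg⟩ := IsCyclic.exists_monoid_generator (α := Fˣ)
  obtain ⟨a, ha⟩ := hg (Units.mk0 t ht)
  obtain ⟨b, hb⟩ := hg (Units.mk0 u hu)
  obtain rfl : (g : F) ^ a = t := by simpa using congrArg Units.val ha
  obtain rfl : (g : F) ^ b = u := by simpa using congrArg Units.val hb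
  rw [← pow_add, p g.ne_zero, p g.ne_zero, p g.ne_zero, pow_add]

theorem pair_of_hom (φ : SL(2, F) →* G) (hA : (upperUnipotentSL2 F).map φ = A)
    (hB : (lowerUnipotentSL2 F).map φ = B) (n : ¬ B ≤ A) : IsPSL2PairOver F A B := by
  refine ⟨φ, by rw [← hA, ← hB, ← Subgroup.map_sup, sl2_sup, MonoidHom.range_eq_map],
    (rog_normal sl2_rog φ.ker inferInstance).resolve_left fun e => n ?_, hA, hB⟩
  rw [← hA, ← hB]
  refine (map_mono (e ▸ le_top)).trans ?_
  rw [Subgroup.map_sup, (Subgroup.map_eq_bot_iff (f := φ) _).2 le_rfl, bot_sup_eq]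

theorem pair_of_st [Finite F] (h : StRel x y) (h2 : (2 : F) = 0) (hA : ∀ g, g ∈ A ↔ ∃ t, x t = g)
    (hB : ∀ g, g ∈ B ↔ ∃ t, y t = g) (n : ¬ B ≤ A) : IsPSL2PairOver F A B := by
  obtain ⟨φ, h1, h3⟩ := h.exists_hom (st_mul h h2)
  refine pair_of_hom φ (Subgroup.ext fun g => .trans ?_ (hA g).symm) (Subgroup.ext fun g => .trans ?_ (hB g).symm) n
  · exact ⟨fun ⟨_, m, e⟩ => (mem_upper.1 m).imp fun t r => by rw [← h1, ← r, e],
      fun ⟨t, e⟩ => ⟨_, upT_mem t, (h1 t).trans e⟩⟩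
  · exact ⟨fun ⟨_, m, e⟩ => (mem_lower.1 m).imp fun t r => by rw [← h3, ← r, e],
      fun ⟨t, e⟩ => ⟨_, loT_mem t, (h3 t).trans e⟩⟩

theorem pair_congr (e : F' ≃+* F) (h : IsPSL2PairOver F A B) : IsPSL2PairOver F' A B := by
  have n : ¬ B ≤ A := fun l => let r := ro_symm (sp_of_psl2Pair h).1
    let ⟨_, m, k⟩ := ro_exists_left r; k (ro_eq_one_of_mem r m (l m))
  obtain ⟨φ, -, -, rfl, rfl⟩ := h
  let ψ := Matrix.SpecialLinearGroup.map (n := Fin 2) (e : F' →+* F)
  have u : ∀ t, ψ (upT t) = upT (e t) := fun t => by apply sl2_ext <;> simp [ψ, upT_coe]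
  have l : ∀ t, ψ (loT t) = loT (e t) := fun t => by apply sl2_ext <;> simp [ψ, loT_coe]
  refine pair_of_hom (φ.comp ψ) ?_ ?_ n <;> rw [← map_map] <;> congr 1 <;> ext g
  · exact ⟨fun ⟨_, m, k⟩ => let ⟨t, r⟩ := mem_upper.1 m; k ▸ r ▸ u t ▸ upT_mem _, fun m =>
      let ⟨t, r⟩ := mem_upper.1 m; ⟨_, upT_mem (e.symm t), by rw [u, r, e.apply_symm_apply]⟩⟩
  · exact ⟨fun ⟨_, m, k⟩ => let ⟨t, r⟩ := mem_lower.1 m; k ▸ r ▸ l t ▸ loT_mem _, fun m =>
      let ⟨t, r⟩ := mem_lower.1 m; ⟨_, loT_mem (e.symm t), by rw [l, r, e.apply_symm_apply]⟩⟩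

theorem pair_card [Fintype F] [Fintype F'] (e : Fintype.card F' = Fintype.card F) (h : IsPSL2PairOver F A B) :
    IsPSL2PairOver F' A B := pair_congr (FiniteField.ringEquivOfCardEq e) h

theorem unip_of_card [Finite F] (h2 : (2 : F) = 0) {C : Subgroup SL(2, F)} (p : IsPGroup 2 C)
    (c : Nat.card C = Nat.card F) : C ∈ unipotentSubgroups (upperUnipotentSL2 F) (lowerUnipotentSL2 F) := by
  haveI : Fact (Nat.Prime 2) := ⟨Nat.prime_two⟩
  have cU : Nat.card (upperUnipotentSL2 F) = Nat.card F := (Nat.card_congr (Equiv.ofBijective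
    (fun t : F => (⟨upT t, upT_mem t⟩ : upperUnipotentSL2 F)) ⟨fun s t e => upT_inj (congrArg Subtype.val e),
      fun g => (mem_upper.1 g.2).imp fun t e => Subtype.ext e.symm⟩)).symm
  have od : ∀ C : Subgroup SL(2, F), Nat.card C = Nat.card F → ¬ 2 ∣ C.index := fun C c d => by
    have e := C.card_mul_index
    rw [c, Classical.card_SL2] at e
    rw [Nat.eq_of_mul_eq_mul_left Nat.card_pos e] at d
    haveI := Fintype.ofFinite F
    haveI : CharP F 2 := CharTwo.of_one_ne_zero_of_two_eq_zero one_ne_zero h2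
    have e2 : 2 ∣ Nat.card F ^ 2 := dvd_pow (Nat.dvd_of_mod_eq_zero (by
      rw [Nat.card_eq_fintype_card]; exact FiniteField.even_card_of_char_two (ringChar.eq F 2))) two_ne_zero
    have := Nat.one_le_pow 2 _ (Nat.card_pos (α := F))
    omega
  have pU : IsPGroup 2 (upperUnipotentSL2 F) := by
    obtain ⟨n, e⟩ := p.exists_card_eq
    exact .of_card (cU.trans (c.symm.trans e))
  obtain ⟨g, e⟩ := MulAction.exists_smul_eq SL(2, F) (pU.toSylow (od _ cU)) (p.toSylow (od _ c))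
  exact ⟨g, (sl2_sup (k := F)).ge (mem_top g), (congrArg Sylow.toSubgroup e).symm⟩

theorem pair_of_psl [Finite F] (h2 : (2 : F) = 0) (e : X ≃* PSL(2, F)) (lA : A ≤ X) (lB : B ≤ X)
    (pA : IsPGroup 2 A) (pB : IsPGroup 2 B) (cA : Nat.card A = Nat.card F) (cB : Nat.card B = Nat.card F)
    (n : ¬ B ≤ A) : IsPSL2PairOver F A B := by
  let ψ : SL(2, F) →* G := X.subtype.comp ((e.symm : PSL(2, F) →* X).comp (Classical.slToPSL F))
  have i : Function.Injective ψ := X.subtype_injective.comp (e.symm.injective.comp (Classical.slToPSL_injective h2))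
  have r : ∀ {C : Subgroup G}, C ≤ X → (C.comap ψ).map ψ = C := fun l => map_comap_eq_self fun g m =>
    let ⟨s, k⟩ := Classical.slToPSL_surjective (e ⟨g, l m⟩); ⟨s, by
      show ((e.symm (Classical.slToPSL F s) : X) : G) = g
      rw [k, e.symm_apply_apply]⟩
  have u : ∀ {C : Subgroup G}, C ≤ X → IsPGroup 2 C → Nat.card C = Nat.card F → _ := fun {C} l p c =>
    unip_of_card h2 (p.comap_of_injective ψ i) (by rw [← c, ← card_map_of_injective i, r l])
  obtain ⟨g, -, e1, e2⟩ := ro_exists_conj_pair sl2_special.1 (u lA pA cA) (u lB pB cB) fun k =>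
    n (by rw [← r lA, k, r lB])
  exact pair_of_hom (ψ.comp (MulAut.conj g).toMonoidHom) (by rw [← map_map, ← r lA, ← e1])
    (by rw [← map_map, ← r lB, ← e2]) n

end CF.Rt2
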