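/-
Root involutions: near pairs generate `SL₂(F)`.
-/
import Cfsg.Agent.RI2.H
import Cfsg.Agent.RI2.I
import Cfsg.Agent.PLocal.Jordan
set_option autoImplicit false
set_option linter.unusedSectionVars false

namespace CF.Rt2
open Subgroup Cfsg CF.BG CF.Rt CF.Fisch
open scoped commutatorElement

variable {G : Type*} [Group G] [Finite G] {D : Set G}
variable {a b c d d' e f g i j k m n p p' q r s t u v w x y z : G}

namespace NT
variable (h : NT D) (he : HE D)
include h he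

theorem ED (hd : d ∈ D) (hz : z ∈ E D d) : z = 1 ∨ z ∈ D :=
  h.E_ind (P := fun z => z = 1 ∨ z ∈ D) hd (.inl rfl) (fun e m s z hz i => by
    rcases i with rfl | i
    · exact .inr (by rwa [mul_one])
    · exact (em (e = z)).imp (fun q => by rw [q, h.sq i]) (he m i (s.trans (h.Esm hd hz i).symm))) hz

theorem E1 (ha : a ∈ D) (hb : b ∈ D) (n : ¬ Sm D a b) (k : z ∈ E D a) (k' : z ∈ E D b) : z = 1 :=
  (h.ED he ha k).resolve_right (h.EnD ha hb n k k')

theorem pz (P : Pt D e b g x) (hz : z ∈ E D b) :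
    cm (cm z x) e = z ∧ x * e * x * z * (x * e * x) = cm z x := by
  obtain ⟨a1, a2, a3, a4⟩ := h.p_nz P hz
  have := h.E1 he P.hb P.hg (h.p_nbg P) (mul_mem hz a2) a4
  have e1 : cm (cm z x) e = z := by rw [← mm (h.Esq P.hb hz) (cm (cm z x) e), this, mul_one]
  refine ⟨e1, ?_⟩
  rw [a3, e1, (h.EE P.hb P.hg (h.p_bg P).c hz a1).eq, mm' (h.Esq P.hb hz)]

theorem pair_pt (P : Pt D a i j x) : ∃ (F : Type) (_ : Field F) (_ : Fintype F),
    Fintype.card F = ♯(E D a) ∧ IsPSL2PairOver F (E D a) (E D x) := by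
  have ha := P.l; have hx := P.r; have hi := P.hb; have hj := P.hg
  have ia := h.p_be P; have ij := h.p_bg P; have ji := h.p_bg P.symm; have jx := h.p_be P.symm
  have n2 := h.n_sq P.toS3
  have vx : ∀ {v y}, v ∈ E D i → y ∈ E D x → cm v y ∈ E D j := fun hv hy =>
    h.cmE hj (h.E_le hj ji hv) (h.E_le hj jx hy) (h.Esq hi hv) (h.Esq hx hy)
  have uz : ∀ {u z}, u ∈ E D j → z ∈ E D a → cm u z ∈ E D i := fun hu hz =>
    h.cmE hi (h.E_le hi ij hu) (h.E_le hi ia hz) (h.Esq hj hu) (h.Esq ha hz)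
  have xE := h.mE' hx
  have aE := h.mE' ha
  letI : CommGroup (E D i) := { (inferInstance : Group (E D i)) with
    mul_comm := fun u v => Subtype.ext (h.EE' hi u.2 v.2) }
  let R := AddMonoid.End (Additive (E D i))
  let T : E D a → R := fun z => AddMonoidHom.mk' (fun v => .ofMul ⟨_, uz (vx v.toMul.2 xE) z.2⟩) fun v w =>
    congrArg Additive.ofMul (Subtype.ext (by
      have hv := v.toMul.2; have hw := w.toMul.2
      show cm (cm ((v.toMul : G) * w.toMul) x) z = cm (cm (v.toMul : G) x) z * cm (cm (w.toMul : G) x) z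
      rw [h.bl hj (h.E_le hj ji hv) (h.E_le hj ji hw) jx.q (h.EE' hi hv hw) (h.Esq hi hw) (h.sq hx),
        h.bl hi (h.E_le hi ij (vx hv xE)) (h.E_le hi ij (vx hw xE)) (h.E_le hi ia z.2)
          (h.EE' hj (vx hv xE) (vx hw xE)) (h.Esq hj (vx hw xE)) (h.Esq ha z.2)]))
  have ma : ∀ (r s : R) v, (r * s) v = r (s v) := fun _ _ _ => rfl
  have Tv : ∀ z v, ((T z v).toMul : G) = cm (cm (v.toMul : G) x) z := fun _ _ => rfl
  have ext : ∀ {r s : R}, (∀ v, ((r v).toMul : G) = (s v).toMul) → r = s := fun k =>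
    AddMonoidHom.ext fun v => Additive.toMul.injective (Subtype.ext (k v))
  have Tm : ∀ z z', T (z * z') = T z + T z' := fun z z' => ext fun v => by
    have hv := vx v.toMul.2 xE
    exact h.br hi (h.E_le hi ia z.2) (h.E_le hi ia z'.2) (h.E_le hi ij hv) (h.EE' ha z.2 z'.2)
      (h.Esq ha z.2) (h.Esq ha z'.2) (h.Esq hj hv)
  have T1 : T 1 = 0 := by simpa using Tm 1 1
  have Ta : T ⟨a, aE⟩ = 1 := ext fun v => (h.pz he P v.toMul.2).1
  have nx : ∀ {y}, y ∈ E D x → x * a * x * y * (x * a * x) ∈ E D a := fun hy => by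
    have := h.E_cj hx hy n2; rwa [h.n_r P.toS3] at this
  have TS : ∀ {y} (hy : y ∈ E D x) (v), ((T ⟨_, nx hy⟩ v).toMul : G) = cm (cm (v.toMul : G) y) a := fun hy v => by
    rw [Tv, ← (h.pz he P v.toMul.2).2, cm_cj n2, ← P.b, (h.pz he P.symm (vx v.toMul.2 hy)).2]
  have TT : ∀ (z : E D a) {y} (hy : y ∈ E D x) (v),
      (((T z * T ⟨_, nx hy⟩) v).toMul : G) = cm (cm (v.toMul : G) y) z := fun z y hy v => by
    rw [ma, Tv, TS hy, (h.pz he P.symm (vx v.toMul.2 hy)).1]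
  have inv : ∀ z : E D a, z ≠ 1 → ∃ y, ∃ hy : y ∈ E D x, T z * T ⟨_, nx hy⟩ = 1 ∧
      (∀ u ∈ E D a, z * y * z * u * (z * y * z) ∈ E D x) ∧
      ∀ u ∈ E D a, ∀ v ∈ E D i, cm v (z * y * z * u * (z * y * z)) = cm (cm (cm v y) u) y := fun z n => by
    have hz := (h.ED he ha z.2).resolve_left fun e => n (Subtype.ext e)
    obtain ⟨_, _, y, s1, s2, s3, P'⟩ := h.l2 P hz (h.Esm ha z.2 hz)
    have e1 := h.E_eq s1 P'.hb hi
    have yE := h.mE hx P'.r s3
    have n3 := h.n_sq P'.toS3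
    refine ⟨y, yE, ext fun v => by rw [TT _ yE]; exact (h.pz he P' (e1.ge v.toMul.2)).1, fun u hu => ?_,
      fun u hu v hv => ?_⟩
    · have := h.E_cj hz (h.E_eq (h.Esm ha z.2 hz) hz ha ▸ hu) n3
      rwa [h.n_l P'.toS3, h.E_eq s3 P'.r hx, ← P'.b] at this
    · rw [P'.b, ← (h.pz he P' (e1.ge (uz (vx hv yE) hu))).2, ← (h.pz he P' (e1.ge hv)).2, ← cm_cj n3]
      simp only [mul_assoc, mm (h.sq hz), mm (h.sq P'.r), h.sq P'.r, mul_one]
  haveI : Nontrivial (E D i) := ⟨⟨i, h.mE' hi⟩, 1, fun e => h.ne hi (congrArg Subtype.val e)⟩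
  haveI : Nontrivial R := ⟨1, 0, fun e => let ⟨v, hv⟩ := exists_ne (0 : Additive (E D i))
    hv (congrArg (fun r : R => r v) e)⟩
  haveI : Finite R := Finite.of_injective (fun r : R => (r : Additive (E D i) → Additive (E D i)))
    DFunLike.coe_injective
  have T0 : ∀ z, T z = 0 → z = 1 := fun z e => by_contra fun n => by
    obtain ⟨_, _, k, -⟩ := inv z n
    rw [e, zero_mul] at k
    exact zero_ne_one k
  have sq : ∀ z : E D a, z * z = 1 := fun z => Subtype.ext (h.Esq ha z.2)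
  have T2 : ∀ z, T z + T z = 0 := fun z => by rw [← Tm, sq, T1]
  have Ti : ∀ {z z'}, T z = T z' → z = z' := fun {z z'} e => by
    rw [← mm (sq z) z', T0 (z * z') (by rw [Tm, e, T2]), mul_one]
  let J : AddSubgroup R :=
    { carrier := Set.range T
      zero_mem' := ⟨1, T1⟩
      add_mem' := by rintro _ _ ⟨z, rfl⟩ ⟨z', rfl⟩; exact ⟨_, Tm z z'⟩
      neg_mem' := by rintro _ ⟨z, rfl⟩; exact ⟨z, eq_neg_of_add_eq_zero_left (T2 z)⟩ }
  obtain ⟨F, _, _, ι, hι⟩ := PLocal.exists_field_of_jordan J ⟨_, Ta⟩ (by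
    rintro _ ⟨z, rfl⟩ n
    obtain ⟨_, _, k, -⟩ := inv z fun e => n (e ▸ T1)
    exact ⟨_, ⟨_, rfl⟩, k⟩)
  choose X hX using fun t => (hι (ι t)).2 ⟨t, rfl⟩
  have Xs : ∀ z, ∃ t, X t = z := fun z => ((hι _).1 ⟨z, rfl⟩).imp fun t e => Ti ((hX t).trans e)
  have h2 : (2 : F) = 0 := ι.injective (by rw [← one_add_one_eq_two, map_add, ← hX, T2, map_zero])
  have ng : ∀ t : F, -t = t := fun t => by linear_combination (-t) * h2
  have nn : ∀ t, x * a * x * (x * a * x * t * (x * a * x)) * (x * a * x) = t := fun t => by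
    generalize x * a * x = n at *; simp only [mul_assoc, mm n2, n2, mul_one]
  have na : ∀ {z}, z ∈ E D a → x * a * x * z * (x * a * x) ∈ E D x := fun hz => by
    have := h.E_cj ha hz n2; rwa [h.n_l P.toS3] at this
  have Xa : ∀ s t, (X (s + t) : G) = X s * X t := fun s t =>
    congrArg Subtype.val (Ti (z := X (s + t)) (z' := X s * X t) (by rw [Tm, hX, hX, hX, map_add]))
  refine ⟨F, inferInstance, inferInstance, ?_, pair_of_st (x := fun t => (X t : G))
    (y := fun t => x * a * x * X t * (x * a * x)) ⟨Xa, fun s t => ?_, fun t ht u => ?_⟩ h2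
    (fun g => ⟨fun m => (Xs ⟨g, m⟩).imp fun _ => congrArg Subtype.val, fun ⟨t, e⟩ => e ▸ (X t).2⟩)
    (fun g => ⟨fun m => (Xs ⟨_, nx m⟩).imp fun t e => by rw [e, nn], fun ⟨t, e⟩ => e ▸ na (X t).2⟩)
    fun l => h.ri.op_nc ha hx P.o (h.EE' ha aE (l xE))⟩
  · rw [← Nat.card_eq_fintype_card]
    exact Nat.card_congr (.ofBijective X ⟨fun s t e => ι.injective (by rw [← hX, ← hX, e]), Xs⟩)
  · rw [Xa]; generalize x * a * x = n at *; simp only [mul_assoc, mm n2]
  · obtain ⟨y, hy, k1, k2, k3⟩ := inv (X t) fun e => ht (ι.injective (by rw [← hX, e, T1, map_zero]))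
    have e1 : T ⟨_, nx hy⟩ = ι t⁻¹ := by
      rw [← one_mul (T _), ← map_one ι, ← inv_mul_cancel₀ ht, map_mul, mul_assoc, ← hX t, k1, mul_one]
    have e2 : x * a * x * X (-t⁻¹) * (x * a * x) = y := by
      rw [ng, ← Ti (e1.trans (hX _).symm), nn]
    have e3 : (⟨_, nx (k2 _ (X u).2)⟩ : E D a) = X (-u / t ^ 2) := Ti (by
      rw [hX, ng, show u / t ^ 2 = t⁻¹ * (u * t⁻¹) by field_simp, map_mul, map_mul, ← e1, ← hX]
      refine ext fun v => ?_
      rw [TS (k2 _ (X u).2), k3 _ (X u).2 _ v.toMul.2, ma, TS hy, TT _ hy])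
    have w2 : (X t : G) * y * X t * (X t * y * X t) = 1 := by
      simp only [mul_assoc, mm (h.Esq ha (X t).2), mm (h.Esq hx hy), h.Esq ha (X t).2]
    beta_reduce
    rw [e2, ← e3, nn, mm' w2]

end NT
end CF.Rt2
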