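/-
Root involutions: transvections in dimension three.
-/
import Mathlib
set_option autoImplicit false

namespace CF.Rt2
open Module Matrix
open scoped MatrixGroups

variable {F : Type*} [Field F]

theorem rank_le {V : Type*} [AddCommGroup V] [Module F V] [FiniteDimensional F V] (d : finrank F V = 3)
    {N : End F V} (n : N * N = 0) : finrank F (LinearMap.range N) ≤ 1 := by
  have := LinearMap.finrank_range_add_finrank_ker N
  have := Submodule.finrank_mono (LinearMap.range_le_ker_iff.2 n)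
  omega

theorem ex_end {V : Type*} [AddCommGroup V] [Module F V] [FiniteDimensional F V] (d : finrank F V = 3)
    {N M : End F V} (n : N * N = 0) (n0 : N ≠ 0) (m : M * M = 0) :
    ∃ P : End F V, P ≠ 0 ∧ P * P = 0 ∧ N * P = 0 ∧ P * N = 0 ∧ P * M = 0 := by
  have h1 := rank_le d n
  have h2 := rank_le d m
  have h3 := Submodule.finrank_add_le_finrank_add_finrank (LinearMap.range N) (LinearMap.range M)
  obtain ⟨f, f0, l⟩ := (LinearMap.range N ⊔ LinearMap.range M).exists_le_ker_of_lt_top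
    (Submodule.lt_top_of_finrank_lt_finrank (by omega))
  obtain ⟨u, hu⟩ : ∃ u, N u ≠ 0 := by
    by_contra! q
    exact n0 (LinearMap.ext q)
  have a : ∀ v, f (N v) = 0 := fun v => l (Submodule.mem_sup_left ⟨v, rfl⟩)
  have b : ∀ v, f (M v) = 0 := fun v => l (Submodule.mem_sup_right ⟨v, rfl⟩)
  have c : N (N u) = 0 := LinearMap.congr_fun n u
  refine ⟨f.smulRight (N u), fun e => f0 (LinearMap.ext fun v => ?_), ?_, ?_, ?_, ?_⟩
  · simpa [hu] using LinearMap.congr_fun e v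
  all_goals ext v; simp [a, b, c]

theorem ex_mat {N M : Matrix (Fin 3) (Fin 3) F} (n : N * N = 0) (n0 : N ≠ 0) (m : M * M = 0) :
    ∃ P : Matrix (Fin 3) (Fin 3) F, P ≠ 0 ∧ P * P = 0 ∧ N * P = 0 ∧ P * N = 0 ∧ P * M = 0 := by
  let e : Matrix (Fin 3) (Fin 3) F ≃ₐ[F] End F (Fin 3 → F) := toLinAlgEquiv'
  obtain ⟨P, p0, p1, p2, p3, p4⟩ := ex_end (F := F) (V := Fin 3 → F) (by simp) (N := e N) (M := e M)
    (by rw [← map_mul, n, map_zero]) (by simpa using n0) (by rw [← map_mul, m, map_zero])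
  obtain ⟨P, rfl⟩ := e.surjective P
  simp only [← map_mul, EmbeddingLike.map_eq_zero_iff, ne_eq] at *
  exact ⟨P, p0, p1, p2, p3, p4⟩

theorem ex_sl [CharP F 2] {d x : SL(3, F)} (d2 : d * d = 1) (d1 : d ≠ 1) (x2 : x * x = 1) :
    ∃ a : SL(3, F), a * a = 1 ∧ a ≠ 1 ∧ Commute d a ∧ (a * x) ^ 4 = 1 := by
  have t : (1 + 1 : Matrix (Fin 3) (Fin 3) F) = 0 := by
    ext i j; simp [CharTwo.add_self_eq_zero]
  have s : ∀ {P Q : Matrix (Fin 3) (Fin 3) F}, Q = P + 1 → Q * Q = P * P + 1 := fun {P Q} e => by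
    rw [e, show (P + 1) * (P + 1) = P * P + 1 + P * (1 + 1) by noncomm_ring, t, mul_zero, add_zero]
  have s' : ∀ {u : SL(3, F)}, u * u = 1 → (u.1 + 1) * (u.1 + 1) = 0 := fun {u} e => by
    rw [s rfl, show u.1 * u.1 = 1 from congrArg Subtype.val e, t]
  have r : ∀ P : Matrix (Fin 3) (Fin 3) F, P = P + 1 + 1 := fun P => by rw [add_assoc, t, add_zero]
  obtain ⟨P, p0, p1, p2, p3, p4⟩ := ex_mat (s' d2) (fun e => d1 (Subtype.ext (by rw [r d.1, e, zero_add]; rfl))) (s' x2)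
  have q : (P + 1) * (P + 1) = 1 := by rw [s rfl, p1, zero_add]
  have q' := congrArg det q
  rw [det_mul, det_one, mul_self_eq_one_iff, CharTwo.neg_eq, or_self] at q'
  refine ⟨⟨P + 1, q'⟩, Subtype.ext q, fun e => p0 (by simpa using congrArg Subtype.val e), Subtype.ext ?_, Subtype.ext ?_⟩
  · change d.1 * (P + 1) = (P + 1) * d.1
    rw [r d.1]
    generalize d.1 + 1 = N at *
    simp only [add_mul, mul_add, p2, p3]; noncomm_ring
  · have m := s' x2
    rw [show 4 = 2 * 2 from rfl, pow_mul, pow_two, pow_two]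
    change ((P + 1) * x.1 * ((P + 1) * x.1)) * ((P + 1) * x.1 * ((P + 1) * x.1)) = 1
    rw [r x.1]
    generalize x.1 + 1 = M at *
    rw [s (s (P := P + M) (by simp only [add_mul, mul_add, p4]; noncomm_ring))]
    simp only [add_mul, mul_add, p1, p4, m, zero_add, add_zero, mul_assoc M P, ← mul_assoc P, zero_mul, mul_zero]

theorem cen3 {z : SL(3, F)} (h : z ∈ Subgroup.center SL(3, F)) : z ^ 3 = 1 := by
  obtain ⟨r, e, f⟩ := Matrix.SpecialLinearGroup.mem_center_iff.1 h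
  exact Subtype.ext (by rw [Matrix.SpecialLinearGroup.coe_pow, ← f, ← map_pow, show r ^ 3 = 1 by simpa using e, map_one]; rfl)

theorem lift3 {d : PSL(3, F)} (d2 : d * d = 1) : ∃ u : SL(3, F), u * u = 1 ∧ (u : PSL(3, F)) = d := by
  obtain ⟨u, rfl⟩ := QuotientGroup.mk_surjective d
  refine ⟨u ^ 3, ?_, ?_⟩
  · rw [← (Commute.refl u).mul_pow]; exact cen3 ((QuotientGroup.eq_one_iff _).1 d2)
  · rw [QuotientGroup.mk_pow, pow_succ, pow_two, d2, one_mul]

theorem ex_psl [CharP F 2] {G : Type*} [Group G] (e : G ≃* PSL(3, F)) {d x : G} (d2 : d * d = 1) (d1 : d ≠ 1)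
    (x2 : x * x = 1) : ∃ a : G, a * a = 1 ∧ a ≠ 1 ∧ Commute d a ∧ (a * x) ^ 4 = 1 := by
  obtain ⟨u, u2, eu⟩ := lift3 (d := e d) (by rw [← map_mul, d2, map_one])
  obtain ⟨v, v2, ev⟩ := lift3 (d := e x) (by rw [← map_mul, x2, map_one])
  obtain ⟨a, a2, a1, c, k⟩ := ex_sl u2 (fun z => d1 (e.injective (by rw [← eu, z, map_one]; rfl))) v2
  let f : SL(3, F) →* G := e.symm.toMonoidHom.comp (QuotientGroup.mk' _)
  have fu : f u = d := by simp [f, eu]
  have fv : f v = x := by simp [f, ev]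
  refine ⟨f a, by rw [← map_mul, a2, map_one], fun z => a1 ?_, fu ▸ c.map f, by rw [← fv, ← map_mul, ← map_pow, k, map_one]⟩
  have := cen3 ((QuotientGroup.eq_one_iff a).1 (by simpa [f] using z))
  rwa [pow_succ, pow_two, a2, one_mul] at this

end CF.Rt2
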